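import Mathlib
import Cfsg.Agent.H59.CAbs
import Cfsg.Agent.H96.Fx.TTR
import Cfsg.Agent.H96.Fx.M3

set_option autoImplicit false

namespace Cfsg.Agent.H59.CAbs

/-- [CABS] with T3 as hypothesis -/
theorem c_abs_of_t3 {G : Type*} [Group G] [Finite G] (hperf : commutator G = ⊤) (P : Sylow 3 G) (e : G)
    (he : e ∈ (P : Subgroup G)) (he3 : orderOf e = 3)
    (h9 : Nat.card ↥((P : Subgroup G) ⊓ Subgroup.centralizer ({e} : Set G)) = 9)
    (Ht3 : ∀ s : G, s * e * s⁻¹ ∈ (P : Subgroup G) →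
      ∃ n ∈ Subgroup.normalizer ((P : Subgroup G) : Set G), ∃ c ∈ ⁅(P : Subgroup G), (P : Subgroup G)⁆,
      s * e * s⁻¹ = n * e * n⁻¹ * c)
    (h27 : 27 ≤ Nat.card P)
    (hB : ∀ q ∈ Subgroup.normalizer ((P : Subgroup G) : Set G), (∃ k : ℕ, q ^ 2 ^ k = 1) →
      ∀ x ∈ (P : Subgroup G), IsConj e x → q * x * q⁻¹ ∈ Subgroup.zpowers x → q = 1) :
    Nat.card P = 27 ∧ ∀ x ∈ (P : Subgroup G), x ^ 3 = 1 := by
  haveI : Fact (Nat.Prime 3) := ⟨Nat.prime_three⟩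
  by_contra hn
  have hn' : ¬ (Nat.card (P : Subgroup G) = 27 ∧ ∀ x : (P : Subgroup G), x ^ 3 = 1) := by
    rintro ⟨h1, h2⟩
    exact hn ⟨h1, fun x hx => by simpa using congrArg Subtype.val (h2 ⟨x, hx⟩)⟩
  have hm3 := Cfsg.Agent.H96.Fx.m3 (P := (P : Subgroup G)) P.isPGroup' (⟨e, he⟩ : (P : Subgroup G))
    ((Subgroup.orderOf_mk e he).trans he3) ((card_cent (P : Subgroup G) e he).trans h9) h27 hn'
  have hee : e ^ 3 = 1 := by rw [← he3]; exact pow_orderOf_eq_one e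
  refine core P e he he3 hB ?_ Ht3 hm3
  intro K hK h1 h2 h3 h4
  exact Cfsg.Agent.H96.Fx.ttr 3 hperf P K hK h1 h2 e he hee h3 h4

end Cfsg.Agent.H59.CAbs
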