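import Mathlib
import Cfsg.Agent.H40.GLIndex
import Cfsg.Agent.H40.GLUnip

/-!
Fixed points on the cosets of standard parabolic subgroups of `GL_n` and chains of invariant subspaces.
-/

set_option autoImplicit false
set_option linter.unusedSectionVars false

namespace Cfsg.Agent.H59.Flags

open Matrix Cfsg.Agent.H40

section paths

variable {X : Type*} [PartialOrder X] (d : X → ℕ)

open Classical in
/-- step matrix -/
noncomputable def st (k : ℕ) : Matrix X X ℂ := fun U V => if U ≤ V ∧ d V = d U + k then 1 else 0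

/-- chains with prescribed jumps -/
def IsPath {N : ℕ} (μ : Fin N → ℕ) (U V : X) (W : Fin (N + 1) → X) : Prop :=
  W 0 = U ∧ W (Fin.last N) = V ∧ ∀ i : Fin N, W i.castSucc ≤ W i.succ ∧ d (W i.succ) = d (W i.castSucc) + μ i

/-- decomposition of paths -/
def pathEquiv {N : ℕ} (μ : Fin (N + 1) → ℕ) (U V : X) :
    {W : Fin (N + 2) → X // IsPath d μ U V W} ≃
      Σ U' : {U' : X // U ≤ U' ∧ d U' = d U + μ 0}, {W : Fin (N + 1) → X // IsPath d (fun i => μ i.succ) U'.1 V W} where
  toFun W := ⟨⟨W.1 1, by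
      have h := W.2.2.2 0
      have h0 : W.1 (Fin.castSucc 0) = U := W.2.1
      rw [h0] at h
      exact h⟩, ⟨Fin.tail W.1, rfl, W.2.2.1, fun i => W.2.2.2 i.succ⟩⟩
  invFun p := ⟨Fin.cons U p.2.1, rfl, by
      have h := p.2.2.2.1
      change (Fin.cons U p.2.1 : Fin (N + 2) → X) (Fin.succ (Fin.last N)) = V
      rw [Fin.cons_succ]
      exact h, by
      intro i
      refine Fin.cases ?_ (fun j => ?_) i
      · rw [Fin.cons_succ, p.2.2.1]
        exact p.1.2
      · have := p.2.2.2.2 j
        exact this⟩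
  left_inv W := by
    apply Subtype.ext
    change (Fin.cons U (Fin.tail W.1) : Fin (N + 2) → X) = W.1
    have h0 : W.1 0 = U := W.2.1
    funext i
    refine Fin.cases ?_ (fun j => ?_) i
    · rw [Fin.cons_zero, h0]
    · rw [Fin.cons_succ]; rfl
  right_inv p := by
    rcases p with ⟨⟨U', hU'⟩, ⟨W, hW⟩⟩
    have h1 : W 0 = U' := hW.1
    subst h1
    rfl

variable [Fintype X] [DecidableEq X]

theorem prod_st (N : ℕ) : ∀ (μ : Fin N → ℕ) (U V : X),
    (List.ofFn (fun i => st d (μ i))).prod U V = (Nat.card {W : Fin (N + 1) → X // IsPath d μ U V W} : ℂ) := by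
  classical
  induction N with
  | zero =>
    intro μ U V
    rw [List.ofFn_zero, List.prod_nil, Matrix.one_apply]
    by_cases h : U = V
    · subst h
      rw [if_pos rfl]
      have : Unique {W : Fin (0 + 1) → X // IsPath d μ U U W} :=
        ⟨⟨⟨fun _ => U, rfl, rfl, fun i => i.elim0⟩⟩, fun W => Subtype.ext (by
          funext i
          have h0 : i = 0 := Fin.ext (by have := i.2; simp only [Fin.val_zero]; omega)
          rw [h0]
          exact W.2.1)⟩
      rw [Nat.card_unique]; norm_num
    · rw [if_neg h]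
      have : IsEmpty {W : Fin (0 + 1) → X // IsPath d μ U V W} := ⟨fun W => h (W.2.1.symm.trans W.2.2.1)⟩
      rw [Nat.card_of_isEmpty]; norm_num
  | succ N ih =>
    intro μ U V
    rw [List.ofFn_succ, List.prod_cons, Matrix.mul_apply]
    rw [Nat.card_congr (pathEquiv d μ U V), Nat.card_sigma, Nat.cast_sum]
    have h1 : ∀ U' : X, st d (μ 0) U U' * (List.ofFn (fun i : Fin N => st d (μ i.succ))).prod U' V =
        if U ≤ U' ∧ d U' = d U + μ 0 then (Nat.card {W : Fin (N + 1) → X // IsPath d (fun i => μ i.succ) U' V W} : ℂ) else 0 := by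
      intro U'
      rw [ih (fun i => μ i.succ) U' V]
      unfold st
      by_cases h : U ≤ U' ∧ d U' = d U + μ 0
      · rw [if_pos h, if_pos h, one_mul]
      · rw [if_neg h, if_neg h, zero_mul]
    rw [Finset.sum_congr rfl (fun U' _ => h1 U'), ← Finset.sum_filter]
    rw [Finset.sum_subtype (Finset.univ.filter (fun U' : X => U ≤ U' ∧ d U' = d U + μ 0)) (p := fun U' => U ≤ U' ∧ d U' = d U + μ 0)
      (fun U' => by simp)]

end paths

section gl

variable {F : Type*} [Field F] {n : ℕ}

/-- the flag of a coset -/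
noncomputable def fl (μ : Fin n → ℕ) (hμ : ∑ i, μ i = n) (c : GL (Fin n) F ⧸ Cfsg.parabolicGL n F μ) (a : Fin n) :
    Submodule F (Fin n → F) := gmap c.out (supp F (levF μ hμ a))

lemma fl_mk (μ : Fin n → ℕ) (hμ : ∑ i, μ i = n) (x : GL (Fin n) F) (a : Fin n) :
    fl μ hμ (x : GL (Fin n) F ⧸ Cfsg.parabolicGL n F μ) a = gmap x (supp F (levF μ hμ a)) := by
  obtain ⟨p, hp⟩ := QuotientGroup.mk_out_eq_mul (Cfsg.parabolicGL n F μ) x
  unfold fl
  rw [hp, gmap_mul, gmap_parabolic μ hμ p.1 p.2]

lemma mem_parabolic_of_stable (μ : Fin n → ℕ) (hμ : ∑ i, μ i = n) (g : GL (Fin n) F)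
    (h : ∀ a, gmap g (supp F (levF μ hμ a)) = supp F (levF μ hμ a)) : g ∈ Cfsg.parabolicGL n F μ := by
  change (g : Matrix (Fin n) (Fin n) F).BlockTriangular (Cfsg.compLabel μ)
  intro i j hij
  have h1 : (Pi.single j 1 : Fin n → F) ∈ supp F (levF μ hμ (labF μ hμ j)) := by
    intro k hk
    rw [Pi.single_apply, if_neg]
    rintro rfl
    exact hk ((mem_levF μ hμ _ _).2 le_rfl)
  have h2 : (g : Matrix (Fin n) (Fin n) F) *ᵥ (Pi.single j 1) ∈ gmap g (supp F (levF μ hμ (labF μ hμ j))) :=
    ⟨_, h1, rfl⟩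
  rw [h] at h2
  have h3 := h2 i (by
    rw [mem_levF, not_le]
    exact hij)
  rw [Matrix.mulVec_single_one] at h3
  exact h3

lemma gmap_one (W : Submodule F (Fin n → F)) : gmap 1 W = W := by
  ext v
  rw [mem_gmap]
  simp

lemma fl_injective (μ : Fin n → ℕ) (hμ : ∑ i, μ i = n) : Function.Injective (fl (F := F) μ hμ) := by
  intro c c' h
  induction c using QuotientGroup.induction_on with
  | H x =>
    induction c' using QuotientGroup.induction_on with
    | H y =>
      rw [QuotientGroup.eq]
      apply mem_parabolic_of_stable μ hμ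
      intro a
      have h1 := congrFun h a
      rw [fl_mk, fl_mk] at h1
      rw [gmap_mul, ← h1, ← gmap_mul, inv_mul_cancel, gmap_one]

lemma exists_adapted [Fintype F] (μ : Fin n → ℕ) (hμ : ∑ i, μ i = n) (T : Fin n → Submodule F (Fin n → F)) (hT : Monotone T)
    (hd : ∀ a, Module.finrank F (T a) = psum μ a) : ∃ x : GL (Fin n) F, ∀ a, gmap x (supp F (levF μ hμ a)) = T a := by
  have hmono : Monotone (labF μ hμ) := fun i j hij => compLabel_mono μ hij
  have hcard := card_LI_in n (fun i => T (labF μ hμ i)) (fun i j hij => hT (hmono hij)) (fun i => psum μ (labF μ hμ i))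
    (fun i => hd _)
  have hpos : 0 < ∏ i : Fin n, (Fintype.card F ^ psum μ (labF μ hμ i) - Fintype.card F ^ i.val) := by
    apply Finset.prod_pos
    intro i _
    have h2 : i.val < psum μ (labF μ hμ i) := ((labF_eq_iff μ hμ i _).1 rfl).2
    have := Nat.pow_lt_pow_right (Fintype.one_lt_card (α := F)) h2
    omega
  rw [← hcard] at hpos
  obtain ⟨⟨s, hs, hsW⟩⟩ := (Nat.card_pos_iff.1 hpos).1
  set x := (Matrix.equiv_GL_linearindependent n).symm ⟨s, hs⟩ with hx
  have hcol : ∀ i j, (x : Matrix (Fin n) (Fin n) F) i j = s j i := by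
    intro i j
    have h1 : (Matrix.equiv_GL_linearindependent n) x = ⟨s, hs⟩ := by rw [hx, Equiv.apply_symm_apply]
    have h2 := congrArg Subtype.val h1
    have h3 := congrFun (congrFun h2 j) i
    exact h3
  refine ⟨x, fun a => ?_⟩
  apply Submodule.eq_of_le_of_finrank_eq
  · rintro _ ⟨v, hv, rfl⟩
    rw [Matrix.mulVecLin_apply]
    have h1 : (x : Matrix (Fin n) (Fin n) F) *ᵥ v = ∑ j, v j • s j := by
      funext i
      rw [Matrix.mulVec, dotProduct, Finset.sum_apply]
      refine Finset.sum_congr rfl fun j _ => ?_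
      rw [hcol, Pi.smul_apply, smul_eq_mul, mul_comm]
    rw [h1]
    refine Submodule.sum_mem _ fun j _ => ?_
    by_cases hj : j ∈ levF μ hμ a
    · apply Submodule.smul_mem
      rw [mem_levF] at hj
      exact hT hj (hsW j)
    · rw [hv j hj, zero_smul]; exact Submodule.zero_mem _
  · rw [finrank_gmap, finrank_lev, hd]

/-- invariant subspaces -/
def Inv (g : GL (Fin n) F) : Type _ := {W : Submodule F (Fin n → F) // gmap g W = W}

instance (g : GL (Fin n) F) : PartialOrder (Inv g) := inferInstanceAs (PartialOrder {W : Submodule F (Fin n → F) // gmap g W = W})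

instance [Finite F] (g : GL (Fin n) F) : Finite (Inv g) := inferInstanceAs (Finite {W : Submodule F (Fin n → F) // gmap g W = W})

lemma gmap_top (g : GL (Fin n) F) : gmap g ⊤ = ⊤ := by
  ext v; rw [mem_gmap]; simp

lemma gmap_bot (g : GL (Fin n) F) : gmap g ⊥ = ⊥ := by
  unfold gmap; exact Submodule.map_bot _

instance (g : GL (Fin n) F) : BoundedOrder (Inv g) where
  top := ⟨⊤, gmap_top g⟩
  bot := ⟨⊥, gmap_bot g⟩
  le_top W := by
    change W.1 ≤ ⊤
    exact le_top
  bot_le W := by
    change ⊥ ≤ W.1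
    exact bot_le

/-- dimension of an invariant subspace -/
noncomputable def dm {g : GL (Fin n) F} (W : Inv g) : ℕ := Module.finrank F W.1

lemma dm_top (g : GL (Fin n) F) : dm (⊤ : Inv g) = n := by
  change Module.finrank F (⊤ : Submodule F (Fin n → F)) = n
  rw [finrank_top, Module.finrank_fintype_fun_eq_card, Fintype.card_fin]

lemma dm_bot (g : GL (Fin n) F) : dm (⊥ : Inv g) = 0 := by
  change Module.finrank F (⊥ : Submodule F (Fin n → F)) = 0
  exact finrank_bot _ _

lemma dm_le {g : GL (Fin n) F} (W : Inv g) : dm W ≤ n := by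
  have := Submodule.finrank_le W.1
  rw [Module.finrank_fintype_fun_eq_card, Fintype.card_fin] at this
  exact this

lemma eq_of_dm {g : GL (Fin n) F} {U V : Inv g} (h : U ≤ V) (hd : dm V ≤ dm U) : U = V := by
  apply Subtype.ext
  exact Submodule.eq_of_le_of_finrank_le h hd

lemma eq_top_of_dm {g : GL (Fin n) F} {U : Inv g} (h : n ≤ dm U) : U = ⊤ :=
  eq_of_dm le_top (by rw [dm_top]; exact h)

/-- fixed points on the cosets of a parabolic subgroup -/
theorem card_fixed [Fintype F] (μ : Fin n → ℕ) (hμ : ∑ i, μ i = n) (g : GL (Fin n) F) :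
    Nat.card (MulAction.fixedBy (GL (Fin n) F ⧸ Cfsg.parabolicGL n F μ) g) =
      Nat.card {W : Fin (n + 1) → Inv g // IsPath (fun U => dm U) μ ⊥ ⊤ W} := by
  have hfix : ∀ c : GL (Fin n) F ⧸ Cfsg.parabolicGL n F μ, c ∈ MulAction.fixedBy (GL (Fin n) F ⧸ Cfsg.parabolicGL n F μ) g ↔
      ∀ a, gmap g (fl μ hμ c a) = fl μ hμ c a := by
    intro c
    induction c using QuotientGroup.induction_on with
    | H x =>
      rw [MulAction.mem_fixedBy]
      have h1 : g • (x : GL (Fin n) F ⧸ Cfsg.parabolicGL n F μ) = ((g * x : GL (Fin n) F) : GL (Fin n) F ⧸ Cfsg.parabolicGL n F μ) := rfl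
      rw [h1]
      constructor
      · intro h a
        rw [fl_mk, ← gmap_mul, ← fl_mk, h, fl_mk]
      · intro h
        apply fl_injective μ hμ
        funext a
        have := h a
        rw [fl_mk, ← gmap_mul] at this
        rw [fl_mk, fl_mk, this]
  have hmonoL : ∀ a b : Fin n, a ≤ b → supp F (levF μ hμ a) ≤ supp F (levF μ hμ b) := by
    intro a b hab v hv k hk
    apply hv k
    intro hk'
    apply hk
    rw [mem_levF] at hk' ⊢
    exact hk'.trans hab
  -- the path of a fixed coset
  let T : MulAction.fixedBy (GL (Fin n) F ⧸ Cfsg.parabolicGL n F μ) g → Fin n → Inv g :=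
    fun c a => ⟨fl μ hμ c.1 a, (hfix c.1).1 c.2 a⟩
  have hTd : ∀ c a, dm (T c a) = psum μ a := by
    intro c a
    change Module.finrank F (gmap _ (supp F (levF μ hμ a))) = _
    rw [finrank_gmap, finrank_lev]
  have hTm : ∀ c, Monotone (T c) := by
    intro c a b hab
    change gmap _ (supp F (levF μ hμ a)) ≤ gmap _ (supp F (levF μ hμ b))
    exact Submodule.map_mono (hmonoL a b hab)
  have hTp : ∀ c, IsPath (fun U => dm U) μ ⊥ ⊤ (Fin.cons ⊥ (T c) : Fin (n + 1) → Inv g) := by
    intro c
    refine ⟨rfl, ?_, ?_⟩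
    · rcases Nat.eq_zero_or_pos n with hn | hn
      · subst hn
        apply Subtype.ext
        exact Subsingleton.elim _ _
      · apply eq_top_of_dm
        obtain ⟨k, rfl⟩ : ∃ k, n = k + 1 := ⟨n - 1, by omega⟩
        have h1 : (Fin.cons ⊥ (T c) : Fin (k + 1 + 1) → Inv g) (Fin.last (k + 1)) = T c (Fin.last k) := by
          rw [← Fin.succ_last, Fin.cons_succ]
        rw [h1, hTd]
        unfold psum
        have h2 : Finset.univ.filter (fun j : Fin (k + 1) => j ≤ Fin.last k) = Finset.univ := by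
          ext j; simp [Fin.le_last]
        rw [h2, hμ]
    · intro i
      rw [Fin.cons_succ]
      rcases Nat.eq_zero_or_pos i.val with hi | hi
      · have h0 : i.castSucc = 0 := by
          apply Fin.ext; simpa using hi
        rw [h0, Fin.cons_zero]
        refine ⟨bot_le, ?_⟩
        simp only
        rw [dm_bot, zero_add, hTd, psum_zero μ i hi]
      · obtain ⟨j, hj⟩ : ∃ j : Fin n, i.castSucc = j.succ := ⟨⟨i.val - 1, by omega⟩, by
          apply Fin.ext; simp only [Fin.val_castSucc, Fin.val_succ]; omega⟩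
        have hji : i.val = j.val + 1 := by
          have := congrArg Fin.val hj
          simpa using this
        rw [hj, Fin.cons_succ]
        refine ⟨hTm c (by rw [Fin.le_def]; omega), ?_⟩
        simp only
        rw [hTd, hTd, psum_succ μ j i hji]
  apply Nat.card_congr
  refine Equiv.ofBijective (fun c => ⟨Fin.cons ⊥ (T c), hTp c⟩) ⟨?_, ?_⟩
  · intro c c' h
    have h1 := congrArg (fun w => Fin.tail w.1) h
    simp only [Fin.tail_cons] at h1
    apply Subtype.ext
    apply fl_injective μ hμ
    funext a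
    exact congrArg Subtype.val (congrFun h1 a)
  · rintro ⟨W, hW0, hWl, hWs⟩
    have hd : ∀ i : Fin (n + 1), ∀ a : Fin n, i = a.succ → dm (W i) = psum μ a := by
      intro i
      refine Fin.induction ?_ ?_ i
      · intro a h
        exact absurd h.symm (Fin.succ_ne_zero a)
      · intro i ih a h
        have hia : i = a := Fin.succ_injective _ h
        subst hia
        have h1 := (hWs i).2
        simp only at h1
        rw [h1]
        rcases Nat.eq_zero_or_pos i.val with hi | hi
        · have h0 : i.castSucc = 0 := by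
            apply Fin.ext; simpa using hi
          rw [h0, hW0, dm_bot, zero_add, psum_zero μ i hi]
        · obtain ⟨j, hj⟩ : ∃ j : Fin n, i.castSucc = j.succ := ⟨⟨i.val - 1, by omega⟩, by
            apply Fin.ext; simp only [Fin.val_castSucc, Fin.val_succ]; omega⟩
          have hji : i.val = j.val + 1 := by
            have := congrArg Fin.val hj
            simpa using this
          rw [ih j hj, psum_succ μ j i hji]
    have hmono : Monotone W := Fin.monotone_iff_le_succ.2 fun i => (hWs i).1
    obtain ⟨x, hx⟩ := exists_adapted μ hμ (fun a => (W a.succ).1) (fun a b hab => hmono (Fin.succ_le_succ_iff.2 hab))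
      (fun a => hd _ a rfl)
    have hxf : (x : GL (Fin n) F ⧸ Cfsg.parabolicGL n F μ) ∈ MulAction.fixedBy (GL (Fin n) F ⧸ Cfsg.parabolicGL n F μ) g := by
      rw [hfix]
      intro a
      rw [fl_mk, hx]
      exact (W a.succ).2
    refine ⟨⟨x, hxf⟩, ?_⟩
    apply Subtype.ext
    change (Fin.cons ⊥ (T ⟨x, hxf⟩) : Fin (n + 1) → Inv g) = W
    funext i
    refine Fin.cases ?_ (fun a => ?_) i
    · rw [Fin.cons_zero, hW0]
    · rw [Fin.cons_succ]
      apply Subtype.ext
      change fl μ hμ (x : GL (Fin n) F ⧸ Cfsg.parabolicGL n F μ) a = _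
      rw [fl_mk, hx]

end gl

end Cfsg.Agent.H59.Flags
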