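import Mathlib
import Cfsg.Agent.LE.SylRel

set_option autoImplicit false

/-!
The order formula for a four-group acting on a subgroup of odd order.
-/

namespace Cfsg.Agent.H59.FourF

open MulAction Subgroup
open Cfsg.Agent.LE (clSet card_clSet)

section dih
variable {G : Type*} [Group G]

/-- Two involutions whose product has odd order are conjugate by a power of the product. -/
theorem dih {g k : G} (hg : g * g = 1) (hk : k * k = 1) (ho : Odd (orderOf (g * k))) :
    ∃ h ∈ Subgroup.zpowers (g * k), h * g * h⁻¹ = k := by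
  obtain ⟨m, hm⟩ := ho
  have hgi : g⁻¹ = g := inv_eq_of_mul_eq_one_left hg
  have hki : k⁻¹ = k := inv_eq_of_mul_eq_one_left hk
  set c := g * k with hc
  have hcg : g * c * g⁻¹ = c⁻¹ := by
    rw [hc, mul_inv_rev, hki, hgi, ← mul_assoc, hg, one_mul]
  have hpow : g * c ^ (m + 1) * g⁻¹ = (c ^ (m + 1))⁻¹ := by
    rw [← conj_pow, hcg, inv_pow]
  have h1 : c ^ (2 * m + 1) = 1 := by rw [← hm, pow_orderOf_eq_one]
  refine ⟨(c ^ (m + 1))⁻¹, Subgroup.inv_mem _ (Subgroup.npow_mem_zpowers _ _), ?_⟩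
  rw [inv_inv]
  have h2 : g * c ^ (m + 1) = (c ^ (m + 1))⁻¹ * g := by
    rw [← hpow, inv_mul_cancel_right]
  rw [mul_assoc, h2, ← mul_assoc, ← mul_inv_rev, ← pow_add]
  have h3 : m + 1 + (m + 1) = (2 * m + 1) + 1 := by ring
  rw [h3, pow_succ, h1, one_mul, hc, mul_inv_rev, hki, hgi, mul_assoc, hg, mul_one]

end dih

variable {G : Type*} [Group G] [Finite G]

theorem odd_orderOf {K : Subgroup G} (hK : Odd (Nat.card K)) {x : G} (hx : x ∈ K) : Odd (orderOf x) :=
  hK.of_dvd_nat (Subgroup.orderOf_dvd_natCard K hx)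

/-- orbit counting for a subgroup -/
theorem card_orb {β : Type*} [MulAction G β] (H : Subgroup G) (b : β) (S : Set β)
    (hS : ∀ y, y ∈ S ↔ ∃ h ∈ H, h • b = y) :
    Nat.card S * Nat.card (H ⊓ stabilizer G b : Subgroup G) = Nat.card H := by
  have h1 : S = MulAction.orbit H b := by
    ext y
    rw [hS y, MulAction.mem_orbit_iff]
    constructor
    · rintro ⟨h, hh, e⟩; exact ⟨⟨h, hh⟩, e⟩
    · rintro ⟨⟨h, hh⟩, e⟩; exact ⟨h, hh, e⟩
  have h2 : Nat.card (H ⊓ stabilizer G b : Subgroup G) = Nat.card (stabilizer H b) := by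
    refine Nat.card_congr ⟨fun g => ⟨⟨g.1, g.2.1⟩, g.2.2⟩, fun g => ⟨g.1.1, g.1.2, g.2⟩, fun _ => rfl, fun _ => rfl⟩
  rw [h2, h1, ← (stabilizer H b).card_mul_index, MulAction.index_stabilizer, mul_comm]
  rfl

theorem clSet_eq {K : Subgroup G} (hK : Odd (Nat.card K)) {x : G} (hx : x * x = 1)
    (hxK : ∀ g ∈ K, x * g * x⁻¹ ∈ K) : clSet K x = {y : G | y * y = 1 ∧ x * y ∈ K} := by
  have hxi : x⁻¹ = x := inv_eq_of_mul_eq_one_left hx
  ext y
  constructor
  · rintro ⟨k, hk, rfl⟩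
    refine ⟨?_, ?_⟩
    · calc k * x * k⁻¹ * (k * x * k⁻¹) = k * (x * x) * k⁻¹ := by group
        _ = 1 := by rw [hx]; group
    · have := K.mul_mem (hxK k hk) (K.inv_mem hk)
      have e : x * (k * x * k⁻¹) = x * k * x⁻¹ * k⁻¹ := by rw [hxi]; group
      rw [e]; exact this
  · rintro ⟨hy, hxy⟩
    obtain ⟨h, hh, e⟩ := dih hx hy (odd_orderOf hK hxy)
    refine ⟨h, ?_, e⟩
    exact (Subgroup.zpowers_le.2 hxy) hh

theorem fib {K : Subgroup G} (hK : Odd (Nat.card K)) {a c : G} (ha : a * a = 1)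
    (hca : c * a = a * c) (haK : ∀ g ∈ K, a * g * a⁻¹ ∈ K) {z : G} (hz : z ∈ clSet K c) :
    Nat.card {x : G // x ∈ clSet K a ∧ z * x = x * z} = Nat.card (clSet (K ⊓ centralizer ({c} : Set G)) a) := by
  have hai : a⁻¹ = a := inv_eq_of_mul_eq_one_left ha
  obtain ⟨k, hk, rfl⟩ := hz
  have hcC : clSet (K ⊓ centralizer ({c} : Set G)) a = {x : G | x ∈ clSet K a ∧ c * x = x * c} := by
    rw [clSet_eq (x := a) (K := K ⊓ centralizer ({c} : Set G)) ?_ ha ?_, clSet_eq hK ha haK]
    · ext x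
      simp only [Set.mem_setOf_eq, Subgroup.mem_inf, Subgroup.mem_centralizer_singleton_iff]
      constructor
      · rintro ⟨h1, h2, h3⟩
        refine ⟨⟨h1, h2⟩, ?_⟩
        have : a * (c * x) = a * (x * c) := by
          rw [← mul_assoc, ← hca, mul_assoc, ← mul_assoc a x c, ← h3]
        exact mul_left_cancel this
      · rintro ⟨⟨h1, h2⟩, h3⟩
        refine ⟨h1, h2, ?_⟩
        rw [mul_assoc, ← h3, ← mul_assoc, ← hca, mul_assoc]
    · exact Odd.of_dvd_nat hK (Subgroup.card_dvd_of_le inf_le_left)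
    · rintro g hg
      rw [Subgroup.mem_inf, Subgroup.mem_centralizer_singleton_iff] at hg ⊢
      refine ⟨haK g hg.1, ?_⟩
      have hg2 : g * c = c * g := hg.2
      rw [hai]
      calc a * g * a * c = a * g * (a * c) := by group
        _ = a * (g * c) * a := by rw [← hca]; group
        _ = (a * c) * g * a := by rw [hg2]; group
        _ = c * (a * g * a) := by rw [← hca]; group
  rw [hcC]
  refine Nat.card_congr ⟨fun x => ⟨k⁻¹ * x.1 * k, ?_, ?_⟩, fun x => ⟨k * x.1 * k⁻¹, ?_, ?_⟩, ?_, ?_⟩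
  · obtain ⟨l, hl, e⟩ := x.2.1
    exact ⟨k⁻¹ * l, K.mul_mem (K.inv_mem hk) hl, by rw [← e]; group⟩
  · have := x.2.2
    calc c * (k⁻¹ * x.1 * k) = k⁻¹ * (k * c * k⁻¹ * x.1) * k := by group
      _ = k⁻¹ * x.1 * k * c := by rw [this]; group
  · obtain ⟨l, hl, e⟩ := x.2.1
    exact ⟨k * l, K.mul_mem hk hl, by rw [← e]; group⟩
  · have := x.2.2
    calc k * c * k⁻¹ * (k * x.1 * k⁻¹) = k * (c * x.1) * k⁻¹ := by group
      _ = k * x.1 * k⁻¹ * (k * c * k⁻¹) := by rw [this]; group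
  · intro x; apply Subtype.ext; simp only; group
  · intro x; apply Subtype.ext; simp only; group

/-- The order formula for a four-group acting on a group of odd order (elementary proof with dihedral groups). -/
theorem four_formula {K : Subgroup G} (hK : Odd (Nat.card K)) {a b : G} (ha : a * a = 1) (hb : b * b = 1)
    (hab : a * b = b * a) (haK : ∀ g ∈ K, a * g * a⁻¹ ∈ K) (hbK : ∀ g ∈ K, b * g * b⁻¹ ∈ K) :
    Nat.card K * Nat.card ↥(K ⊓ centralizer ({a} : Set G) ⊓ centralizer ({b} : Set G)) ^ 2 =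
      Nat.card ↥(K ⊓ centralizer ({a} : Set G)) * Nat.card ↥(K ⊓ centralizer ({b} : Set G)) *
        Nat.card ↥(K ⊓ centralizer ({a * b} : Set G)) := by
  classical
  obtain ⟨c, hc⟩ : ∃ c, c = a * b := ⟨_, rfl⟩
  rw [← hc]
  have hcc : c * c = 1 := by
    rw [hc]
    calc a * b * (a * b) = a * b * (b * a) := by rw [hab]
      _ = a * (b * b) * a := by group
      _ = 1 := by rw [hb, mul_one, ha]
  have hci : c⁻¹ = c := inv_eq_of_mul_eq_one_left hcc
  have hcK : ∀ g ∈ K, c * g * c⁻¹ ∈ K := by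
    intro g hg
    have := haK _ (hbK g hg)
    have e : c * g * c⁻¹ = a * (b * g * b⁻¹) * a⁻¹ := by rw [hc]; group
    rw [e]; exact this
  have hca : c * a = a * c := by rw [hc, mul_assoc, ← hab]
  have hcb : c * b = b * c := by rw [hc, ← mul_assoc, ← hab]
  have hac : a * c = b := by rw [hc, ← mul_assoc, ha, one_mul]
  have hcaa : c * a = b := hca.trans hac
  have hcbb : c * b = a := by rw [hc, mul_assoc, hb, mul_one]
  -- the three classes
  set A := clSet K a with hA
  set B := clSet K b with hB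
  set C := clSet K c with hC
  have hAe := clSet_eq hK ha haK
  have hBe := clSet_eq hK hb hbK
  have hCe := clSet_eq hK hcc hcK
  rw [← hA] at hAe
  rw [← hB] at hBe
  rw [← hC] at hCe
  have hK' := hK
  obtain ⟨m, hm⟩ := hK
  obtain ⟨q, hq⟩ : ∃ q, q = Nat.card K := ⟨_, rfl⟩
  rw [← hq] at hm
  -- the map
  have key : ∀ x ∈ A, ∀ y ∈ B, (x * y) ^ q ∈ C ∧ (x * y) ^ q * x = x * (x * y) ^ q ∧
      (x * y) ^ q * y = y * (x * y) ^ q := by
    intro x hx y hy
    rw [hAe] at hx
    rw [hBe] at hy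
    obtain ⟨hx1, hx2⟩ := hx
    obtain ⟨hy1, hy2⟩ := hy
    have hxi : x⁻¹ = x := inv_eq_of_mul_eq_one_left hx1
    have hyi : y⁻¹ = y := inv_eq_of_mul_eq_one_left hy1
    -- c * (x*y) ∈ K
    have e0 : c * (x * y) ∈ K := by
      have h1 : b * (a * x) * b⁻¹ ∈ K := hbK _ hx2
      have h2 := K.mul_mem h1 hy2
      have e : b * (a * x) * b⁻¹ * (b * y) = c * (x * y) := by
        rw [hc, hab]; group
      rw [← e]; exact h2
    have e1 : (x * y) * c⁻¹ ∈ K := by
      have := hcK _ e0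
      have e : c * (c * (x * y)) * c⁻¹ = (x * y) * c⁻¹ := by
        rw [← mul_assoc, hcc, one_mul]
      rw [← e]; exact this
    have e2 : (x * y) ^ 2 ∈ K := by
      have := K.mul_mem e1 e0
      have e : x * y * c⁻¹ * (c * (x * y)) = (x * y) ^ 2 := by rw [pow_two]; group
      rw [← e]; exact this
    have hsq : (x * y) ^ q * (x * y) ^ q = 1 := by
      rw [← pow_add, ← two_mul, pow_mul, hq]
      exact orderOf_dvd_iff_pow_eq_one.1 (Subgroup.orderOf_dvd_natCard K e2)
    have hinv : ((x * y) ^ q)⁻¹ = (x * y) ^ q := inv_eq_of_mul_eq_one_left hsq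
    refine ⟨?_, ?_, ?_⟩
    · rw [hCe]
      refine ⟨hsq, ?_⟩
      rw [hm, pow_succ', ← mul_assoc, pow_mul]
      exact K.mul_mem e0 (K.pow_mem e2 _)
    · have h3 : x * (x * y) * x⁻¹ = (x * y)⁻¹ := by
        rw [mul_inv_rev, hyi, hxi, ← mul_assoc, hx1, one_mul]
      have h4 : x * (x * y) ^ q * x⁻¹ = (x * y) ^ q := by
        rw [← conj_pow, h3, inv_pow, hinv]
      calc (x * y) ^ q * x = (x * (x * y) ^ q * x⁻¹) * x := by rw [h4]
        _ = x * (x * y) ^ q := by group
    · have h3 : y * (x * y) * y⁻¹ = (x * y)⁻¹ := by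
        rw [mul_inv_rev, hyi, hxi, mul_assoc, mul_assoc, hy1, mul_one]
      have h4 : y * (x * y) ^ q * y⁻¹ = (x * y) ^ q := by
        rw [← conj_pow, h3, inv_pow, hinv]
      calc (x * y) ^ q * y = (y * (x * y) ^ q * y⁻¹) * y := by rw [h4]
        _ = y * (x * y) ^ q := by group
  -- uniqueness
  have huniq : ∀ x ∈ A, ∀ y ∈ B, ∀ z ∈ C, z * x = x * z → z * y = y * z → (x * y) ^ q = z := by
    intro x hx y hy z hz hzx hzy
    obtain ⟨h1, h2, h3⟩ := key x hx y hy
    have hz' := hz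
    rw [hCe] at hz' h1
    set w := (x * y) ^ q with hw
    have hzxy : z * (x * y) = x * y * z := by rw [← mul_assoc, hzx, mul_assoc, hzy, mul_assoc]
    have hzw : z * w = w * z := (Commute.pow_right (show Commute z (x * y) from hzxy) q).eq
    -- w * z ∈ K and squares to one
    have hwi : w⁻¹ = w := inv_eq_of_mul_eq_one_left h1.1
    have h4 : w * z ∈ K := by
      have h5 : c * w ∈ K := h1.2
      have h6 : c * z ∈ K := hz'.2
      have e2 : (c * w)⁻¹ = w * c := by rw [mul_inv_rev, hci, hwi]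
      have h8 := K.mul_mem (K.inv_mem h5) h6
      rw [e2] at h8
      have e3 : w * c * (c * z) = w * z := by
        rw [mul_assoc, ← mul_assoc c c z, hcc, one_mul]
      rw [← e3]; exact h8
    have h5 : (w * z) * (w * z) = 1 := by
      calc (w * z) * (w * z) = w * (z * w) * z := by group
        _ = (w * w) * (z * z) := by rw [hzw]; group
        _ = 1 := by rw [h1.1, hz'.1, one_mul]
    have h6 : w * z = 1 := by
      have h7 : Odd (orderOf (w * z)) := odd_orderOf hK' h4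
      have h8 : orderOf (w * z) ∣ 2 := orderOf_dvd_of_pow_eq_one (by rw [pow_two]; exact h5)
      have h9 : orderOf (w * z) = 1 := by
        rcases (Nat.dvd_prime Nat.prime_two).1 h8 with h | h
        · exact h
        · rw [h] at h7; exact absurd h7 (by decide)
      exact orderOf_eq_one_iff.1 h9
    have hzi : z⁻¹ = z := inv_eq_of_mul_eq_one_left hz'.1
    rw [← hzi]; exact eq_inv_of_mul_eq_one_left h6
  -- fibres
  have hfibA : ∀ z ∈ C, Nat.card {x : G // x ∈ A ∧ z * x = x * z} = Nat.card (clSet (K ⊓ centralizer ({c} : Set G)) a) :=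
    fun z hz => fib hK' ha hca haK hz
  have hfibB : ∀ z ∈ C, Nat.card {x : G // x ∈ B ∧ z * x = x * z} = Nat.card (clSet (K ⊓ centralizer ({c} : Set G)) b) :=
    fun z hz => fib hK' hb hcb hbK hz
  -- double counting
  have hcount : Nat.card A * Nat.card B = Nat.card C *
      (Nat.card (clSet (K ⊓ centralizer ({c} : Set G)) a) * Nat.card (clSet (K ⊓ centralizer ({c} : Set G)) b)) := by
    rw [← Nat.card_prod]
    let e : (A × B) ≃ (Σ z : C, {x : G // x ∈ A ∧ z.1 * x = x * z.1} × {x : G // x ∈ B ∧ z.1 * x = x * z.1}) :=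
      { toFun := fun p => ⟨⟨(p.1.1 * p.2.1) ^ q, (key _ p.1.2 _ p.2.2).1⟩,
          ⟨⟨p.1.1, p.1.2, (key _ p.1.2 _ p.2.2).2.1⟩, ⟨p.2.1, p.2.2, (key _ p.1.2 _ p.2.2).2.2⟩⟩⟩
        invFun := fun s => (⟨s.2.1.1, s.2.1.2.1⟩, ⟨s.2.2.1, s.2.2.2.1⟩)
        left_inv := fun p => rfl
        right_inv := by
          rintro ⟨⟨z, hz⟩, ⟨x, hx1, hx2⟩, ⟨y, hy1, hy2⟩⟩
          have := huniq x hx1 y hy1 z hz hx2 hy2
          subst this
          rfl }
    haveI : Fintype C := Fintype.ofFinite _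
    rw [Nat.card_congr e, Nat.card_sigma]
    have : ∀ z : C, Nat.card ({x : G // x ∈ A ∧ z.1 * x = x * z.1} × {x : G // x ∈ B ∧ z.1 * x = x * z.1}) =
        (Nat.card (clSet (K ⊓ centralizer ({c} : Set G)) a) * Nat.card (clSet (K ⊓ centralizer ({c} : Set G)) b)) := by
      intro z
      rw [Nat.card_prod, hfibA z.1 z.2, hfibB z.1 z.2]
    rw [Finset.sum_congr rfl (fun z _ => this z)]
    simp
  have c1 := card_clSet K a
  have c2 := card_clSet K b
  have c3 := card_clSet K c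
  have c4 := card_clSet (K ⊓ centralizer ({c} : Set G)) a
  have c5 := card_clSet (K ⊓ centralizer ({c} : Set G)) b
  rw [← hA, ← hq] at c1
  rw [← hB, ← hq] at c2
  rw [← hC, ← hq] at c3
  have hva : K ⊓ centralizer ({c} : Set G) ⊓ centralizer ({a} : Set G) =
      K ⊓ centralizer ({a} : Set G) ⊓ centralizer ({b} : Set G) := by
    ext g
    simp only [Subgroup.mem_inf, Subgroup.mem_centralizer_singleton_iff]
    constructor
    · rintro ⟨⟨h1, h2⟩, h3⟩
      refine ⟨⟨h1, h3⟩, ?_⟩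
      rw [← hac]
      exact (Commute.mul_right (show Commute g a from h3) (show Commute g c from h2)).eq
    · rintro ⟨⟨h1, h2⟩, h3⟩
      refine ⟨⟨h1, ?_⟩, h2⟩
      rw [hc]
      exact (Commute.mul_right (show Commute g a from h2) (show Commute g b from h3)).eq
  have hvb : K ⊓ centralizer ({c} : Set G) ⊓ centralizer ({b} : Set G) =
      K ⊓ centralizer ({a} : Set G) ⊓ centralizer ({b} : Set G) := by
    ext g
    simp only [Subgroup.mem_inf, Subgroup.mem_centralizer_singleton_iff]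
    constructor
    · rintro ⟨⟨h1, h2⟩, h3⟩
      refine ⟨⟨h1, ?_⟩, h3⟩
      rw [← hcbb]
      exact (Commute.mul_right (show Commute g c from h2) (show Commute g b from h3)).eq
    · rintro ⟨⟨h1, h2⟩, h3⟩
      refine ⟨⟨h1, ?_⟩, h3⟩
      rw [hc]
      exact (Commute.mul_right (show Commute g a from h2) (show Commute g b from h3)).eq
  rw [hva] at c4
  rw [hvb] at c5
  rw [← hq]
  set v := Nat.card ↥(K ⊓ centralizer ({a} : Set G) ⊓ centralizer ({b} : Set G)) with hv
  set α := Nat.card ↥(K ⊓ centralizer ({a} : Set G)) with hα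
  set β := Nat.card ↥(K ⊓ centralizer ({b} : Set G)) with hβ
  set γ := Nat.card ↥(K ⊓ centralizer ({c} : Set G)) with hγ
  set nA := Nat.card A
  set nB := Nat.card B
  set nC := Nat.card C
  set ta := Nat.card (clSet (K ⊓ centralizer ({c} : Set G)) a)
  set tb := Nat.card (clSet (K ⊓ centralizer ({c} : Set G)) b)
  have hqpos : 0 < q := by rw [hq]; exact Nat.card_pos
  have hγpos : 0 < γ := Nat.card_pos
  have : q * γ * (q * v ^ 2) = q * γ * (α * β * γ) := by
    calc q * γ * (q * v ^ 2) = (nA * α) * (nB * β) * γ * v ^ 2 := by rw [c1, c2]; ring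
      _ = (nA * nB) * (α * β) * γ * v ^ 2 := by ring
      _ = nC * (ta * tb) * (α * β) * γ * v ^ 2 := by rw [hcount]
      _ = (nC * γ) * (ta * v) * (tb * v) * (α * β) := by ring
      _ = q * γ * (α * β * γ) := by rw [c3, c4, c5]; ring
  exact Nat.eq_of_mul_eq_mul_left (Nat.mul_pos hqpos hγpos) this

end Cfsg.Agent.H59.FourF
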