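import Cfsg.Agent.H59.FourF
import Cfsg.Agent.H52.Four

set_option autoImplicit false

/-!
4-transitive groups with 4-point stabilizers of odd order: transport lemmas.
-/

namespace Cfsg.Agent.H59.FourT

open MulAction Subgroup Cfsg.Agent.H59.FourF

structure Q4 (G α : Type*) [Group G] [MulAction G α] : Prop where
  tr : ∀ x y : Fin 4 ↪ α, ∃ g : G, ∀ i, g • x i = y i
  odd : ∀ x : Fin 4 ↪ α, Odd (Nat.card (stabilizer G x))

variable {G α : Type*} [Group G] [MulAction G α]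

theorem mem_stab {x : Fin 4 ↪ α} {g : G} : g ∈ stabilizer G x ↔ ∀ i, g • x i = x i := by
  rw [mem_stabilizer_iff, DFunLike.ext_iff]; rfl

def cmp (x : Fin 4 ↪ α) (σ : Equiv.Perm (Fin 4)) : Fin 4 ↪ α := σ.toEmbedding.trans x

theorem cmp_apply (x : Fin 4 ↪ α) (σ : Equiv.Perm (Fin 4)) (i : Fin 4) : cmp x σ i = x (σ i) := rfl

theorem stab_cmp (x : Fin 4 ↪ α) (σ : Equiv.Perm (Fin 4)) : stabilizer G (cmp x σ) = stabilizer G x := by
  ext g
  rw [mem_stab, mem_stab]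
  simp only [cmp_apply]
  exact ⟨fun h i => by have := h (σ.symm i); rwa [Equiv.apply_symm_apply] at this, fun h i => h _⟩

def D4 (p q r u : α) : Prop := p ≠ q ∧ p ≠ r ∧ p ≠ u ∧ q ≠ r ∧ q ≠ u ∧ r ≠ u

def e4 (p q r u : α) (h : D4 p q r u) : Fin 4 ↪ α := ⟨![p, q, r, u], by
  obtain ⟨h1, h2, h3, h4, h5, h6⟩ := h
  intro i j hij
  fin_cases i <;> fin_cases j <;> simp_all⟩

theorem e4_0 {p q r u : α} (h : D4 p q r u) : e4 p q r u h 0 = p := rfl
theorem e4_1 {p q r u : α} (h : D4 p q r u) : e4 p q r u h 1 = q := rfl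
theorem e4_2 {p q r u : α} (h : D4 p q r u) : e4 p q r u h 2 = r := rfl
theorem e4_3 {p q r u : α} (h : D4 p q r u) : e4 p q r u h 3 = u := rfl

/-- a property of all `i : Fin 4` -/
theorem all4 {P : Fin 4 → Prop} (h0 : P 0) (h1 : P 1) (h2 : P 2) (h3 : P 3) : ∀ i, P i := by
  intro i; fin_cases i
  · exact h0
  · exact h1
  · exact h2
  · exact h3

theorem comm_of_mem_zpowers {t c : G} (h : t * c = c * t) {g : G} (hg : g ∈ Subgroup.zpowers c) : t * g = g * t := by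
  obtain ⟨n, rfl⟩ := Subgroup.mem_zpowers_iff.1 hg
  exact (Commute.zpow_right (show Commute t c from h) n).eq

namespace Q4

variable [Finite G] (h : Q4 G α)
include h

theorem step {t t' : G} (ht : t * t = 1) (ht' : t' * t' = 1) (y : Fin 4 ↪ α)
    (hy : ∀ i, t • y i = t' • y i) :
    ∃ u ∈ Subgroup.zpowers (t * t'), u * t * u⁻¹ = t' ∧ ∀ i, u • y i = y i := by
  have h1 : t * t' ∈ stabilizer G y := by
    rw [mem_stab]
    intro i
    rw [mul_smul, ← hy i, ← mul_smul, ht, one_smul]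
  obtain ⟨u, hu, e⟩ := dih ht ht' (odd_orderOf (h.odd y) h1)
  exact ⟨u, hu, e, mem_stab.1 ((Subgroup.zpowers_le.2 h1) hu)⟩

theorem conjT {t t' : G} (ht : t * t = 1) (ht' : t' * t' = 1) (x y : Fin 4 ↪ α) (π : Fin 4 → Fin 4)
    (hx : ∀ i, t • x i = x (π i)) (hy : ∀ i, t' • y i = y (π i)) :
    ∃ u : G, u * t * u⁻¹ = t' ∧ ∀ i, u • x i = y i := by
  obtain ⟨u0, hu0⟩ := h.tr x y
  have e1 : ∀ i, u0⁻¹ • y i = x i := fun i => by rw [inv_smul_eq_iff, hu0 i]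
  have h1 : ∀ i, (u0 * t * u0⁻¹) • y i = t' • y i := by
    intro i
    rw [mul_smul, mul_smul, e1, hx, hu0, hy]
  have h2 : (u0 * t * u0⁻¹) * (u0 * t * u0⁻¹) = 1 := by
    calc (u0 * t * u0⁻¹) * (u0 * t * u0⁻¹) = u0 * (t * t) * u0⁻¹ := by group
      _ = 1 := by rw [ht]; group
  obtain ⟨u1, -, e, h3⟩ := h.step h2 ht' y h1
  refine ⟨u1 * u0, ?_, ?_⟩
  · rw [← e]; group
  · intro i; rw [mul_smul, hu0, h3]

theorem pairT {t r t' r' : G} (ht : t * t = 1) (hr : r * r = 1) (htr : t * r = r * t)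
    (ht' : t' * t' = 1) (hr' : r' * r' = 1) (htr' : t' * r' = r' * t') (x y : Fin 4 ↪ α) (π ρ : Fin 4 → Fin 4)
    (hx : ∀ i, t • x i = x (π i)) (hy : ∀ i, t' • y i = y (π i))
    (hx2 : ∀ i, r • x i = x (ρ i)) (hy2 : ∀ i, r' • y i = y (ρ i)) :
    ∃ u : G, u * t * u⁻¹ = t' ∧ u * r * u⁻¹ = r' ∧ ∀ i, u • x i = y i := by
  obtain ⟨u0, hu0t, hu0⟩ := h.conjT ht ht' x y π hx hy
  have e1 : ∀ i, u0⁻¹ • y i = x i := fun i => by rw [inv_smul_eq_iff, hu0 i]
  have h1 : ∀ i, (u0 * r * u0⁻¹) • y i = r' • y i := by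
    intro i
    rw [mul_smul, mul_smul, e1, hx2, hu0, hy2]
  have h2 : (u0 * r * u0⁻¹) * (u0 * r * u0⁻¹) = 1 := by
    calc (u0 * r * u0⁻¹) * (u0 * r * u0⁻¹) = u0 * (r * r) * u0⁻¹ := by group
      _ = 1 := by rw [hr]; group
  have h4 : t' * (u0 * r * u0⁻¹) = (u0 * r * u0⁻¹) * t' := by
    rw [← hu0t]
    calc u0 * t * u0⁻¹ * (u0 * r * u0⁻¹) = u0 * (t * r) * u0⁻¹ := by group
      _ = u0 * (r * t) * u0⁻¹ := by rw [htr]
      _ = _ := by group
  obtain ⟨u1, hu1, e, h3⟩ := h.step h2 hr' y h1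
  have h5 : t' * (u0 * r * u0⁻¹ * r') = (u0 * r * u0⁻¹ * r') * t' := by
    rw [← mul_assoc, h4, mul_assoc, htr', ← mul_assoc]
  have h6 := comm_of_mem_zpowers h5 hu1
  refine ⟨u1 * u0, ?_, ?_, ?_⟩
  · calc u1 * u0 * t * (u1 * u0)⁻¹ = u1 * (u0 * t * u0⁻¹) * u1⁻¹ := by group
      _ = u1 * t' * u1⁻¹ := by rw [hu0t]
      _ = t' * (u1 * u1⁻¹) := by rw [← h6]; group
      _ = t' := by group
  · rw [← e]; group
  · intro i; rw [mul_smul, hu0, h3]

/-- the odd power of an element inducing an involution -/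
theorem oddPow (x : Fin 4 ↪ α) (π : Fin 4 → Fin 4) (hπ : ∀ i, π (π i) = i) {g : G} (hg : ∀ i, g • x i = x (π i)) :
    ∃ m : ℕ, g ^ (2 * m + 1) * g ^ (2 * m + 1) = 1 ∧ ∀ i, g ^ (2 * m + 1) • x i = x (π i) := by
  obtain ⟨m, hm⟩ := h.odd x
  have h2 : g ^ 2 ∈ stabilizer G x := by
    rw [mem_stab]; intro i
    rw [pow_two, mul_smul, hg, hg, hπ]
  refine ⟨m, ?_, ?_⟩
  · rw [← pow_add, ← two_mul, pow_mul, ← hm]
    exact orderOf_dvd_iff_pow_eq_one.1 (Subgroup.orderOf_dvd_natCard _ h2)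
  · intro i
    rw [pow_succ', pow_mul, mul_smul, mem_stab.1 (Subgroup.pow_mem _ h2 m) i, hg]

end Q4

/-- the basic configuration -/
structure Cf (x : Fin 4 ↪ α) (a b s : G) : Prop where
  aa : a * a = 1
  bb : b * b = 1
  ss : s * s = 1
  ab : a * b = b * a
  sa : s * a = a * s
  sb : s * b * s⁻¹ = a * b
  pa : ∀ i, a • x i = x (![1, 0, 3, 2] i)
  pb : ∀ i, b • x i = x (![2, 3, 0, 1] i)
  ps : ∀ i, s • x i = x (![1, 0, 2, 3] i)

theorem Q4.exists_cf [Finite G] (h : Q4 G α) (x : Fin 4 ↪ α) : ∃ a b s : G, Cf x a b s := by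
  -- a
  obtain ⟨g, hg⟩ := h.tr x (cmp x (Equiv.swap 0 1 * Equiv.swap 2 3))
  have hg' : ∀ i, g • x i = x (![1, 0, 3, 2] i) := by
    intro i; rw [hg, cmp_apply]; congr 1; revert i; decide
  obtain ⟨m, ha, pa⟩ := h.oddPow x _ (by decide) hg'
  set a := g ^ (2 * m + 1) with hadef
  clear_value a
  -- b
  obtain ⟨u, hu1, hu2⟩ := h.conjT ha ha x (cmp x (Equiv.swap 0 2 * Equiv.swap 1 3)) ![1, 0, 3, 2] pa (by
    intro i; rw [cmp_apply, cmp_apply, pa]; congr 1; revert i; decide)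
  have hu2' : ∀ i, u • x i = x (![2, 3, 0, 1] i) := by
    intro i; rw [hu2, cmp_apply]; congr 1; revert i; decide
  obtain ⟨m', hb, pb⟩ := h.oddPow x _ (by decide) hu2'
  have hua : a * u = u * a := by
    calc a * u = (u * a * u⁻¹) * u := by rw [hu1]
      _ = u * a := by group
  have hab : a * u ^ (2 * m' + 1) = u ^ (2 * m' + 1) * a :=
    (Commute.pow_right (show Commute a u from hua) _).eq
  set b := u ^ (2 * m' + 1) with hbdef
  clear_value b
  -- s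
  have hcc : (a * b) * (a * b) = 1 := by
    calc a * b * (a * b) = a * b * (b * a) := by rw [hab]
      _ = a * (b * b) * a := by group
      _ = 1 := by rw [hb, mul_one, ha]
  have pc : ∀ i, (a * b) • x i = x (![3, 2, 1, 0] i) := by
    intro i; rw [mul_smul, pb, pa]; congr 1; revert i; decide
  have hac : a * (a * b) = a * b * a := by rw [mul_assoc a b a, ← hab]
  obtain ⟨w, hw1, hw2, hw3⟩ := h.pairT ha hb hab ha hcc hac x (cmp x (Equiv.swap 0 1)) ![1, 0, 3, 2] ![2, 3, 0, 1]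
    pa (by intro i; rw [cmp_apply, cmp_apply, pa]; congr 1; revert i; decide)
    pb (by intro i; rw [cmp_apply, cmp_apply, pc]; congr 1; revert i; decide)
  have hw3' : ∀ i, w • x i = x (![1, 0, 2, 3] i) := by
    intro i; rw [hw3, cmp_apply]; congr 1; revert i; decide
  obtain ⟨l, hs, ps⟩ := h.oddPow x _ (by decide) hw3'
  have hwa : a * w = w * a := by
    calc a * w = (w * a * w⁻¹) * w := by rw [hw1]
      _ = w * a := by group
  have hw4 : w * (a * b) * w⁻¹ = b := by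
    calc w * (a * b) * w⁻¹ = (w * a * w⁻¹) * (w * b * w⁻¹) := by group
      _ = a * (a * b) := by rw [hw1, hw2]
      _ = b := by rw [← mul_assoc, ha, one_mul]
  have hw5 : b * (w ^ 2) = w ^ 2 * b := by
    have : w ^ 2 * b * (w ^ 2)⁻¹ = b := by
      calc w ^ 2 * b * (w ^ 2)⁻¹ = w * (w * b * w⁻¹) * w⁻¹ := by rw [pow_two]; group
        _ = b := by rw [hw2, hw4]
    calc b * (w ^ 2) = (w ^ 2 * b * (w ^ 2)⁻¹) * w ^ 2 := by rw [this]
      _ = w ^ 2 * b := by group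
  have hsa : w ^ (2 * l + 1) * a = a * w ^ (2 * l + 1) :=
    ((Commute.pow_right (show Commute a w from hwa) _).eq).symm
  have hsb : w ^ (2 * l + 1) * b * (w ^ (2 * l + 1))⁻¹ = a * b := by
    have e1 : b * (w ^ 2) ^ l = (w ^ 2) ^ l * b := (Commute.pow_right (show Commute b (w ^ 2) from hw5) _).eq
    rw [pow_succ', pow_mul]
    calc w * (w ^ 2) ^ l * b * (w * (w ^ 2) ^ l)⁻¹ = w * ((w ^ 2) ^ l * b) * ((w ^ 2) ^ l)⁻¹ * w⁻¹ := by group
      _ = w * b * w⁻¹ := by rw [← e1]; group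
      _ = a * b := hw2
  exact ⟨a, b, w ^ (2 * l + 1), ha, hb, hs, hab, hsa, hsb, pa, pb, ps⟩

end Cfsg.Agent.H59.FourT
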