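import Cfsg.Agent.H59.FourT

set_option autoImplicit false

/-!
4-transitive groups with 4-point stabilizers of odd order: counting.
-/

namespace Cfsg.Agent.H59.FourT

open MulAction Subgroup Cfsg.Agent.H59.FourF

variable {G α : Type*} [Group G] [MulAction G α]

theorem mul_self_smul {t : G} (ht : t * t = 1) (p : α) : t • t • p = p := by
  rw [← mul_smul, ht, one_smul]

theorem fix_of_odd_two [Finite G] {S : Set α} (hS : S.Finite) (h2 : S.ncard ≤ 2) {g : G} (hg : Odd (orderOf g))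
    (hgS : ∀ q ∈ S, g • q ∈ S) {q : α} (hq : q ∈ S) : g • q = q := by
  by_contra hne
  have h1 : g • q ∈ S := hgS q hq
  have h3 : g • g • q ∈ S := hgS _ h1
  have h4 : ({q, g • q} : Set α) = S := by
    apply Set.eq_of_subset_of_ncard_le _ _ hS
    · intro y hy
      rcases hy with rfl | rfl
      · exact hq
      · exact h1
    · rw [Set.ncard_pair (Ne.symm hne)]; exact h2
  have h5 : g • g • q = q := by
    rw [← h4] at h3
    rcases h3 with h | h
    · exact h
    · exact absurd (smul_left_cancel g h) hne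
  obtain ⟨m, hm⟩ := hg
  apply hne
  have h6 : (g ^ 2) • q = q := by rw [pow_two, mul_smul, h5]
  have h7 : ∀ k : ℕ, ((g ^ 2) ^ k) • q = q := by
    intro k; induction k with
    | zero => rw [pow_zero, one_smul]
    | succ k ih => rw [pow_succ, mul_smul, h6, ih]
  calc g • q = g • ((g ^ 2) ^ m) • q := by rw [h7]
    _ = (g ^ (2 * m + 1)) • q := by rw [← mul_smul, ← pow_mul, ← pow_succ']
    _ = q := by rw [← hm, pow_orderOf_eq_one, one_smul]

theorem dicho {S : Set α} (hS : S.Finite) (h3 : S.ncard ≤ 3) {b : G} (hb : b * b = 1)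
    (hbS : ∀ q ∈ S, b • q ∈ S) : (∀ q ∈ S, b • q = q) ∨ (S \ fixedBy α b).ncard = 2 := by
  classical
  by_cases h : ∀ q ∈ S, b • q = q
  · exact Or.inl h
  right
  push Not at h
  obtain ⟨q, hq, hne⟩ := h
  have hM : ∀ r ∈ S \ fixedBy α b, b • r ∈ S \ fixedBy α b := by
    rintro r ⟨h1, h2⟩
    refine ⟨hbS r h1, fun h3 => h2 ?_⟩
    have h3' : b • b • r = b • r := h3
    exact smul_left_cancel b h3'
  have hq1 : q ∈ S \ fixedBy α b := ⟨hq, hne⟩
  have hsub : ({q, b • q} : Set α) ⊆ S \ fixedBy α b := by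
    intro y hy
    rcases hy with rfl | rfl
    · exact hq1
    · exact hM _ hq1
  have hfin : (S \ fixedBy α b).Finite := hS.subset Set.diff_subset
  by_contra hcard
  have h5 : ({q, b • q} : Set α).ncard < (S \ fixedBy α b).ncard := by
    have := Set.ncard_le_ncard hsub hfin
    rw [Set.ncard_pair (Ne.symm hne)] at this ⊢
    omega
  obtain ⟨r, hr, hr2⟩ := Set.exists_mem_notMem_of_ncard_lt_ncard h5
  have hr3 : r ≠ q := fun h => hr2 (by rw [h]; exact Set.mem_insert _ _)
  have hr4 : r ≠ b • q := fun h => hr2 (by rw [h]; exact Set.mem_insert_of_mem _ rfl)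
  have hr5 : b • r ≠ q := fun h => hr4 (by rw [← h, mul_self_smul hb])
  have hr6 : b • r ≠ b • q := fun h => hr3 (smul_left_cancel b h)
  have hr7 : b • r ≠ r := hr.2
  have h6 : ({q, b • q, r, b • r} : Set α) ⊆ S := by
    intro y hy
    rcases hy with rfl | rfl | rfl | rfl
    · exact hq
    · exact hbS _ hq
    · exact hr.1
    · exact hbS _ hr.1
  have h7 := Set.ncard_le_ncard h6 hS
  have h8 : ({q, b • q, r, b • r} : Set α).ncard = 4 := by
    rw [Set.ncard_insert_of_notMem, Set.ncard_insert_of_notMem, Set.ncard_pair (Ne.symm hr7)]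
    · simp only [Set.mem_insert_iff, Set.mem_singleton_iff, not_or]
      exact ⟨Ne.symm hr4, Ne.symm hr6⟩
    · simp only [Set.mem_insert_iff, Set.mem_singleton_iff, not_or]
      exact ⟨Ne.symm hne, Ne.symm hr3, Ne.symm hr5⟩
  omega

theorem fix_comm {t g : G} (h : g * t = t * g) : ∀ q ∈ fixedBy α t, g • q ∈ fixedBy α t := by
  intro q hq
  have hq' : t • q = q := hq
  change t • g • q = g • q
  rw [← mul_smul, ← h, mul_smul, hq']

theorem card_eq_of_conj [Finite G] {H H' : Subgroup G} (u : G) (h1 : ∀ g ∈ H, u * g * u⁻¹ ∈ H')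
    (h2 : ∀ g ∈ H', u⁻¹ * g * u ∈ H) : Nat.card H = Nat.card H' := by
  refine Nat.card_congr ⟨fun g => ⟨_, h1 g.1 g.2⟩, fun g => ⟨_, h2 g.1 g.2⟩, ?_, ?_⟩
  · intro g; apply Subtype.ext; simp only; group
  · intro g; apply Subtype.ext; simp only; group

theorem cent_conj {t t' u g : G} (hu : u * t * u⁻¹ = t') (hg : g ∈ centralizer ({t} : Set G)) :
    u * g * u⁻¹ ∈ centralizer ({t'} : Set G) := by
  rw [Subgroup.mem_centralizer_singleton_iff] at hg ⊢
  rw [← hu]
  calc u * g * u⁻¹ * (u * t * u⁻¹) = u * (g * t) * u⁻¹ := by group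
    _ = u * (t * g) * u⁻¹ := by rw [hg]
    _ = _ := by group

theorem cent_conj' {t t' u g : G} (hu : u * t * u⁻¹ = t') (hg : g ∈ centralizer ({t'} : Set G)) :
    u⁻¹ * g * u ∈ centralizer ({t} : Set G) := by
  have := cent_conj (t := t') (t' := t) (u := u⁻¹) (g := g) (by rw [← hu]; group) hg
  rwa [inv_inv] at this

theorem normK {x : Fin 4 ↪ α} {g : G} (π : Fin 4 → Fin 4) (π' : Fin 4 → Fin 4) (hπ : ∀ i, π (π' i) = i)
    (hg : ∀ i, g • x i = x (π i)) {k : G} (hk : k ∈ stabilizer G x) : g * k * g⁻¹ ∈ stabilizer G x := by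
  rw [mem_stab] at hk ⊢
  intro i
  have h1 : g⁻¹ • x i = x (π' i) := by rw [inv_smul_eq_iff, hg, hπ]
  rw [mul_smul, mul_smul, h1, hk, hg, hπ]

theorem normK' {x : Fin 4 ↪ α} {g : G} (π : Fin 4 → Fin 4)
    (hg : ∀ i, g • x i = x (π i)) {k : G} (hk : k ∈ stabilizer G x) : g⁻¹ * k * g ∈ stabilizer G x := by
  rw [mem_stab] at hk ⊢
  intro i
  rw [mul_smul, mul_smul, hg, hk, inv_smul_eq_iff, hg]

/-- change of the involution -/
theorem card_cent [Finite G] {x : Fin 4 ↪ α} {t t' g : G} (π π' : Fin 4 → Fin 4) (hπ : ∀ i, π (π' i) = i)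
    (hg : ∀ i, g • x i = x (π i)) (ht : g * t * g⁻¹ = t') :
    Nat.card ↥(stabilizer G x ⊓ centralizer ({t} : Set G)) = Nat.card ↥(stabilizer G x ⊓ centralizer ({t'} : Set G)) := by
  apply card_eq_of_conj g
  · intro k hk
    exact ⟨normK π π' hπ hg hk.1, cent_conj ht hk.2⟩
  · intro k hk
    exact ⟨normK' π hg hk.1, cent_conj' ht hk.2⟩

namespace Q4

variable [Finite G] [Finite α] (h : Q4 G α)
include h

theorem fix_le {t : G} (ht : t * t = 1) (ht1 : t ≠ 1) : (fixedBy α t).ncard ≤ 3 := by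
  classical
  by_contra hc
  push Not at hc
  haveI : Fintype (fixedBy α t) := Fintype.ofFinite _
  have h1 : Fintype.card (Fin 4) ≤ Fintype.card (fixedBy α t) := by
    rw [Fintype.card_fin, ← Nat.card_eq_fintype_card]; exact hc
  obtain ⟨e⟩ := Function.Embedding.nonempty_of_card_le h1
  let x : Fin 4 ↪ α := e.trans (Function.Embedding.subtype _)
  have h2 : t ∈ stabilizer G x := mem_stab.2 fun i => (e i).2
  have h3 := odd_orderOf (h.odd x) h2
  have h8 : orderOf t ∣ 2 := orderOf_dvd_of_pow_eq_one (by rw [pow_two]; exact ht)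
  rcases (Nat.dvd_prime Nat.prime_two).1 h8 with h | h
  · exact ht1 (orderOf_eq_one_iff.1 h)
  · rw [h] at h3; exact absurd h3 (by decide)

omit [Finite G] h in
theorem D4.of {t : G} (ht : t * t = 1) {p r : α} (hp : t • p ≠ p) (hr : t • r ≠ r) (h1 : r ≠ p) (h2 : r ≠ t • p) :
    D4 p (t • p) r (t • r) :=
  ⟨Ne.symm hp, Ne.symm h1, fun e => h2 (by rw [e, mul_self_smul ht]), Ne.symm h2,
    fun e => h1 (smul_left_cancel t e).symm, Ne.symm hr⟩

theorem exists_pat [FaithfulSMul G α] (hn : 6 ≤ Nat.card α) {t : G} (ht : t * t = 1) (ht1 : t ≠ 1) {p : α} (hp : t • p ≠ p) :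
    ∃ r, t • r ≠ r ∧ r ≠ p ∧ r ≠ t • p := by
  classical
  have h1 := h.fix_le ht ht1
  have h2 : (fixedBy α t).ncard + ((fixedBy α t)ᶜ).ncard = Nat.card α := Set.ncard_add_ncard_compl _
  have h3 : ({p, t • p} : Set α).ncard < ((fixedBy α t)ᶜ).ncard := by
    rw [Set.ncard_pair (Ne.symm hp)]; omega
  obtain ⟨r, hr, hr2⟩ := Set.exists_mem_notMem_of_ncard_lt_ncard h3
  exact ⟨r, hr, fun e => hr2 (by rw [e]; exact Set.mem_insert _ _),
    fun e => hr2 (by rw [e]; exact Set.mem_insert_of_mem _ rfl)⟩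

omit [Finite G] [Finite α] h in
theorem exists_moved [FaithfulSMul G α] {t : G} (ht1 : t ≠ 1) : ∃ p : α, t • p ≠ p := by
  by_contra hc
  push Not at hc
  exact ht1 (FaithfulSMul.eq_of_smul_eq_smul fun p : α => by rw [hc p, one_smul])

/-- all involutions are conjugate -/
theorem conj_all [FaithfulSMul G α] (hn : 6 ≤ Nat.card α) {x : Fin 4 ↪ α} {a : G} (ha : a * a = 1)
    (pa : ∀ i, a • x i = x (![1, 0, 3, 2] i)) {t : G} (ht : t * t = 1) {p : α} (hp : t • p ≠ p) :
    ∃ u : G, u * a * u⁻¹ = t ∧ u • x 0 = p := by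
  have ht1 : t ≠ 1 := by rintro rfl; exact hp (one_smul _ _)
  obtain ⟨r, h1, h2, h3⟩ := h.exists_pat hn ht ht1 hp
  obtain ⟨u, hu, hu2⟩ := h.conjT ha ht x (e4 _ _ _ _ (D4.of ht hp h1 h2 h3)) ![1, 0, 3, 2] pa (by
    apply all4
    · exact rfl
    · exact mul_self_smul ht p
    · exact rfl
    · exact mul_self_smul ht r)
  exact ⟨u, hu, hu2 0⟩

theorem fix_card [FaithfulSMul G α] (hn : 6 ≤ Nat.card α) {x : Fin 4 ↪ α} {a : G} (ha : a * a = 1)
    (pa : ∀ i, a • x i = x (![1, 0, 3, 2] i)) {t : G} (ht : t * t = 1) (ht1 : t ≠ 1) :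
    (fixedBy α t).ncard = (fixedBy α a).ncard := by
  obtain ⟨p, hp⟩ := exists_moved (α := α) ht1
  obtain ⟨u, hu, -⟩ := h.conj_all hn ha pa ht hp
  rw [← hu, ← smul_fixedBy]
  exact Set.ncard_image_of_injective _ (MulAction.injective u)

end Q4

/-- orbits of `C(s) ∩ G_{x 0}` on pairs of fixed points of `s` -/
theorem A1 [Finite G] [Finite α] (h : Q4 G α) {x : Fin 4 ↪ α} {s : G} (hs : s * s = 1)
    (ps : ∀ i, s • x i = x (![1, 0, 2, 3] i)) :
    ((fixedBy α s).ncard * (fixedBy α s).ncard - (fixedBy α s).ncard) *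
      Nat.card ↥(stabilizer G x ⊓ centralizer ({s} : Set G)) =
      Nat.card ↥(centralizer ({s} : Set G) ⊓ stabilizer G (x 0)) := by
  classical
  haveI : Fintype α := Fintype.ofFinite _
  have hx0 : s • x 0 = x 1 := ps 0
  have hx1 : s • x 1 = x 0 := ps 1
  have hx2 : s • x 2 = x 2 := ps 2
  have hx3 : s • x 3 = x 3 := ps 3
  have hne : ∀ i j, i ≠ j → x i ≠ x j := fun i j hij e => hij (x.injective e)
  have h1 := card_orb (centralizer ({s} : Set G) ⊓ stabilizer G (x 0)) (x 2, x 3) (fixedBy α s).offDiag (by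
    rintro ⟨p, q⟩
    constructor
    · rintro ⟨hp, hq, hpq⟩
      simp only at hp hq hpq
      have hp' : s • p = p := hp
      have hq' : s • q = q := hq
      have hD : D4 (x 0) (x 1) p q := by
        refine ⟨hne _ _ (by decide), ?_, ?_, ?_, ?_, hpq⟩
        · rintro e; rw [← e, hx0] at hp'; exact hne _ _ (by decide) hp'
        · rintro e; rw [← e, hx0] at hq'; exact hne _ _ (by decide) hq'
        · rintro e; rw [← e, hx1] at hp'; exact hne _ _ (by decide) hp'
        · rintro e; rw [← e, hx1] at hq'; exact hne _ _ (by decide) hq'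
      obtain ⟨u, hu1, hu2⟩ := h.conjT hs hs x (e4 _ _ _ _ hD) ![1, 0, 2, 3] ps (by
        apply all4
        · exact hx0
        · exact hx1
        · exact hp'
        · exact hq')
      refine ⟨u, Subgroup.mem_inf.2 ⟨?_, hu2 0⟩, ?_⟩
      · rw [Subgroup.mem_centralizer_singleton_iff]
        calc u * s = (u * s * u⁻¹) * u := by group
          _ = s * u := by rw [hu1]
      · exact Prod.ext (hu2 2) (hu2 3)
    · rintro ⟨u, hu, e⟩
      obtain ⟨hu1, hu2⟩ := Subgroup.mem_inf.1 hu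
      rw [Subgroup.mem_centralizer_singleton_iff] at hu1
      have e1 : u • x 2 = p := congrArg Prod.fst e
      have e2 : u • x 3 = q := congrArg Prod.snd e
      refine ⟨?_, ?_, ?_⟩
      · simp only; rw [← e1]; exact fix_comm hu1 _ hx2
      · simp only; rw [← e2]; exact fix_comm hu1 _ hx3
      · simp only; rw [← e1, ← e2]; intro e3; exact hne _ _ (by decide) (smul_left_cancel u e3))
  have h2 : centralizer ({s} : Set G) ⊓ stabilizer G (x 0) ⊓ stabilizer G ((x 2, x 3) : α × α) =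
      stabilizer G x ⊓ centralizer ({s} : Set G) := by
    ext u
    simp only [Subgroup.mem_inf, Subgroup.mem_centralizer_singleton_iff, mem_stabilizer_iff (a := x 0),
      mem_stabilizer_iff (a := (x 2, x 3)), mem_stab, Prod.smul_mk, Prod.mk.injEq]
    constructor
    · rintro ⟨⟨h3, h4⟩, h5, h6⟩
      refine ⟨all4 h4 ?_ h5 h6, h3⟩
      rw [← hx0, ← mul_smul, h3, mul_smul, h4]
    · rintro ⟨h3, h4⟩
      exact ⟨⟨h4, h3 0⟩, h3 2, h3 3⟩
  rw [h2] at h1
  rw [← h1]
  congr 1
  rw [Nat.card_coe_set_eq, Set.ncard_eq_toFinset_card', Set.ncard_eq_toFinset_card' (fixedBy α s).offDiag,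
    Set.toFinset_offDiag, Finset.offDiag_card]

/-- orbits of `C(a) ∩ G_{x 0}` on moved points of `a` -/
theorem A2 [Finite G] [Finite α] (h : Q4 G α) {x : Fin 4 ↪ α} {a : G} (ha : a * a = 1)
    (pa : ∀ i, a • x i = x (![1, 0, 3, 2] i)) :
    (Nat.card α - (fixedBy α a).ncard - 2) *
      Nat.card ↥(stabilizer G x ⊓ centralizer ({a} : Set G)) =
      Nat.card ↥(centralizer ({a} : Set G) ⊓ stabilizer G (x 0)) := by
  classical
  haveI : Fintype α := Fintype.ofFinite _
  have hx0 : a • x 0 = x 1 := pa 0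
  have hx1 : a • x 1 = x 0 := pa 1
  have hx2 : a • x 2 = x 3 := pa 2
  have hx3 : a • x 3 = x 2 := pa 3
  have hne : ∀ i j, i ≠ j → x i ≠ x j := fun i j hij e => hij (x.injective e)
  have h1 := card_orb (centralizer ({a} : Set G) ⊓ stabilizer G (x 0)) (x 2) ((fixedBy α a)ᶜ \ {x 0, x 1}) (by
    intro p
    constructor
    · rintro ⟨hp, hp2⟩
      have hp' : a • p ≠ p := hp
      simp only [Set.mem_insert_iff, Set.mem_singleton_iff, not_or] at hp2
      have hD : D4 (x 0) (a • x 0) p (a • p) :=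
        Q4.D4.of ha (by rw [hx0]; exact hne _ _ (by decide)) hp' hp2.1 (by rw [hx0]; exact hp2.2)
      obtain ⟨u, hu1, hu2⟩ := h.conjT ha ha x (e4 _ _ _ _ hD) ![1, 0, 3, 2] pa (by
        apply all4
        · exact rfl
        · exact mul_self_smul ha _
        · exact rfl
        · exact mul_self_smul ha _)
      refine ⟨u, Subgroup.mem_inf.2 ⟨?_, hu2 0⟩, hu2 2⟩
      rw [Subgroup.mem_centralizer_singleton_iff]
      calc u * a = (u * a * u⁻¹) * u := by group
        _ = a * u := by rw [hu1]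
    · rintro ⟨u, hu, e⟩
      obtain ⟨hu1, hu2⟩ := Subgroup.mem_inf.1 hu
      rw [Subgroup.mem_centralizer_singleton_iff] at hu1
      have hu3 : u • x 0 = x 0 := hu2
      have hu4 : u • x 1 = x 1 := by rw [← hx0, ← mul_smul, hu1, mul_smul, hu3]
      refine ⟨?_, ?_⟩
      · intro hc
        have hc' : a • p = p := hc
        rw [← e, ← mul_smul, ← hu1, mul_smul, hx2] at hc'
        exact hne _ _ (by decide) (smul_left_cancel u hc')
      · simp only [Set.mem_insert_iff, Set.mem_singleton_iff, not_or]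
        constructor
        · intro hc; rw [← e, ← hu3] at hc; exact hne _ _ (by decide) (smul_left_cancel u hc)
        · intro hc; rw [← e, ← hu4] at hc; exact hne _ _ (by decide) (smul_left_cancel u hc))
  have h2 : centralizer ({a} : Set G) ⊓ stabilizer G (x 0) ⊓ stabilizer G (x 2) =
      stabilizer G x ⊓ centralizer ({a} : Set G) := by
    ext u
    simp only [Subgroup.mem_inf, Subgroup.mem_centralizer_singleton_iff, mem_stabilizer_iff (a := x 0),
      mem_stabilizer_iff (a := x 2), mem_stab]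
    constructor
    · rintro ⟨⟨h3, h4⟩, h5⟩
      refine ⟨all4 h4 ?_ h5 ?_, h3⟩
      · rw [← hx0, ← mul_smul, h3, mul_smul, h4]
      · rw [← hx2, ← mul_smul, h3, mul_smul, h5]
    · rintro ⟨h3, h4⟩
      exact ⟨⟨h4, h3 0⟩, h3 2⟩
  rw [h2] at h1
  rw [← h1]
  congr 1
  have h3 : (fixedBy α a).ncard + ((fixedBy α a)ᶜ).ncard = Nat.card α := Set.ncard_add_ncard_compl _
  have h4 : ({x 0, x 1} : Set α) ⊆ (fixedBy α a)ᶜ := by
    intro y hy
    rcases hy with rfl | rfl
    · intro hc; have hc' : a • x 0 = x 0 := hc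
      rw [hx0] at hc'; exact hne _ _ (by decide) hc'
    · intro hc; have hc' : a • x 1 = x 1 := hc
      rw [hx1] at hc'; exact hne _ _ (by decide) hc'
  have h5 := Set.ncard_sdiff h4
  rw [Set.ncard_pair (hne _ _ (by decide))] at h5
  rw [Nat.card_coe_set_eq, h5]
  omega

end Cfsg.Agent.H59.FourT
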