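import Cfsg.Agent.H59.FourT2

set_option autoImplicit false

/-!
4-transitive groups with 4-point stabilizers of odd order: the two types.
-/

namespace Cfsg.Agent.H59.FourT

open MulAction Subgroup Cfsg.Agent.H59.FourF

variable {G α : Type*} [Group G] [MulAction G α]

/-- points moved by the three involutions of a four-group -/
def R (a b : G) : Set α := {y | a • y ≠ y ∧ b • y ≠ y ∧ (a * b) • y ≠ y}

theorem D4.four {a b : G} (ha : a * a = 1) (hb : b * b = 1) (hab : a * b = b * a) {y : α}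
    (hy : y ∈ (R a b : Set α)) : D4 y (a • y) (b • y) ((a * b) • y) := by
  obtain ⟨h1, h2, h3⟩ := hy
  refine ⟨Ne.symm h1, Ne.symm h2, Ne.symm h3, ?_, ?_, ?_⟩
  · intro e
    apply h3
    rw [mul_smul, ← e, mul_self_smul ha]
  · intro e
    rw [mul_smul] at e
    exact h2 (smul_left_cancel a e).symm
  · intro e
    rw [hab, mul_smul] at e
    exact h1 (smul_left_cancel b e).symm

theorem C1 [Finite G] [Finite α] (h : Q4 G α) {x : Fin 4 ↪ α} {a b s : G} (hc : Cf x a b s) :
    (R a b : Set α).ncard * Nat.card ↥(stabilizer G x ⊓ centralizer ({a} : Set G) ⊓ centralizer ({b} : Set G)) =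
      Nat.card ↥(centralizer ({a} : Set G) ⊓ centralizer ({b} : Set G)) := by
  have hx0 : a • x 0 = x 1 := hc.pa 0
  have hb0 : b • x 0 = x 2 := hc.pb 0
  have hc0 : (a * b) • x 0 = x 3 := by rw [mul_smul, hb0]; exact hc.pa 2
  have hne : ∀ i j, i ≠ j → x i ≠ x j := fun i j hij e => hij (x.injective e)
  have h1 := card_orb (centralizer ({a} : Set G) ⊓ centralizer ({b} : Set G)) (x 0) (R a b : Set α) (by
    intro y
    constructor
    · intro hy
      have hD := D4.four hc.aa hc.bb hc.ab hy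
      obtain ⟨u, hu1, hu2, hu3⟩ := h.pairT hc.aa hc.bb hc.ab hc.aa hc.bb hc.ab x (e4 _ _ _ _ hD)
        ![1, 0, 3, 2] ![2, 3, 0, 1] hc.pa (by
          apply all4
          · exact rfl
          · exact mul_self_smul hc.aa _
          · change a • b • y = (a * b) • y; rw [mul_smul]
          · change a • (a * b) • y = b • y; rw [mul_smul, mul_self_smul hc.aa])
        hc.pb (by
          apply all4
          · exact rfl
          · change b • a • y = (a * b) • y; rw [hc.ab, mul_smul]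
          · exact mul_self_smul hc.bb _
          · change b • (a * b) • y = a • y; rw [hc.ab, mul_smul, mul_self_smul hc.bb])
      refine ⟨u, Subgroup.mem_inf.2 ⟨?_, ?_⟩, hu3 0⟩
      · rw [Subgroup.mem_centralizer_singleton_iff]
        calc u * a = (u * a * u⁻¹) * u := by group
          _ = a * u := by rw [hu1]
      · rw [Subgroup.mem_centralizer_singleton_iff]
        calc u * b = (u * b * u⁻¹) * u := by group
          _ = b * u := by rw [hu2]
    · rintro ⟨u, hu, rfl⟩
      obtain ⟨hu1, hu2⟩ := Subgroup.mem_inf.1 hu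
      rw [Subgroup.mem_centralizer_singleton_iff] at hu1 hu2
      refine ⟨?_, ?_, ?_⟩
      · intro e; rw [← mul_smul, ← hu1, mul_smul, hx0] at e
        exact hne _ _ (by decide) (smul_left_cancel u e)
      · intro e; rw [← mul_smul, ← hu2, mul_smul, hb0] at e
        exact hne _ _ (by decide) (smul_left_cancel u e)
      · intro e
        have hu3 : u * (a * b) = (a * b) * u := by rw [← mul_assoc, hu1, mul_assoc, hu2, mul_assoc]
        rw [← mul_smul, ← hu3, mul_smul, hc0] at e
        exact hne _ _ (by decide) (smul_left_cancel u e))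
  have h2 : centralizer ({a} : Set G) ⊓ centralizer ({b} : Set G) ⊓ stabilizer G (x 0) =
      stabilizer G x ⊓ centralizer ({a} : Set G) ⊓ centralizer ({b} : Set G) := by
    ext u
    simp only [Subgroup.mem_inf, Subgroup.mem_centralizer_singleton_iff, mem_stabilizer_iff (a := x 0), mem_stab]
    constructor
    · rintro ⟨⟨h3, h4⟩, h5⟩
      refine ⟨⟨all4 h5 ?_ ?_ ?_, h3⟩, h4⟩
      · rw [← hx0, ← mul_smul, h3, mul_smul, h5]
      · rw [← hb0, ← mul_smul, h4, mul_smul, h5]
      · have hu3 : u * (a * b) = (a * b) * u := by rw [← mul_assoc, h3, mul_assoc, h4, mul_assoc]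
        rw [← hc0, ← mul_smul, hu3, mul_smul, h5]
    · rintro ⟨⟨h3, h4⟩, h5⟩
      exact ⟨⟨h4, h5⟩, h3 0⟩
  rw [h2] at h1
  rw [← h1, Nat.card_coe_set_eq]

namespace Cf
variable {x : Fin 4 ↪ α} {a b s : G} (hc : Cf x a b s)
include hc

theorem sa2 : (s * a) * (s * a) = 1 := by
  calc (s * a) * (s * a) = (s * a) * (a * s) := by rw [hc.sa]
    _ = s * (a * a) * s := by group
    _ = 1 := by rw [hc.aa, mul_one, hc.ss]

theorem s_sa : s * (s * a) = (s * a) * s := by rw [mul_assoc s a s, ← hc.sa]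

theorem psa : ∀ i, (s * a) • x i = x (![0, 1, 3, 2] i) := by
  intro i; rw [mul_smul, hc.pa, hc.ps]; congr 1; revert i; decide

theorem cc : (a * b) * (a * b) = 1 := by
  calc (a * b) * (a * b) = (a * b) * (b * a) := by rw [hc.ab]
    _ = a * (b * b) * a := by group
    _ = 1 := by rw [hc.bb, mul_one, hc.aa]

theorem pc : ∀ i, (a * b) • x i = x (![3, 2, 1, 0] i) := by
  intro i; rw [mul_smul, hc.pb, hc.pa]; congr 1; revert i; decide

theorem ne : ∀ i j, i ≠ j → x i ≠ x j := fun _ _ hij e => hij (x.injective e)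

theorem bs : b * s * b⁻¹ = s * a := by
  have h1 := hc.sb
  have hbi : b⁻¹ = b := inv_eq_of_mul_eq_one_left hc.bb
  have hsi : s⁻¹ = s := inv_eq_of_mul_eq_one_left hc.ss
  rw [hsi] at h1
  rw [hbi]
  -- s b s = a b, so b s b = s (a b) b ... 
  have h2 : b * s = s * (a * b) := by
    rw [← h1]
    calc b * s = (s * s) * (b * s) := by rw [hc.ss, one_mul]
      _ = s * (s * b * s) := by group
  calc b * s * b = s * (a * b) * b := by rw [h2]
    _ = s * a * (b * b) := by group
    _ = s * a := by rw [hc.bb, mul_one]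

theorem a1 : a ≠ 1 := by
  rintro rfl
  have := hc.pa 0
  rw [one_smul] at this
  exact hc.ne _ _ (by decide) this

theorem b1 : b ≠ 1 := by
  rintro rfl
  have := hc.pb 0
  rw [one_smul] at this
  exact hc.ne _ _ (by decide) this

theorem s1 : s ≠ 1 := by
  rintro rfl
  have := hc.ps 0
  rw [one_smul] at this
  exact hc.ne _ _ (by decide) this

theorem c1 : a * b ≠ 1 := by
  intro e
  have := hc.pc 0
  rw [e, one_smul] at this
  exact hc.ne _ _ (by decide) this

theorem sa1 : s * a ≠ 1 := by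
  intro e
  have := hc.psa 2
  rw [e, one_smul] at this
  exact hc.ne _ _ (by decide) this

end Cf

theorem C2 [Finite G] [Finite α] (h : Q4 G α) {x : Fin 4 ↪ α} {a b s : G} (hc : Cf x a b s) :
    4 * Nat.card ↥(stabilizer G x ⊓ centralizer ({s} : Set G) ⊓ centralizer ({s * a} : Set G)) =
      Nat.card ↥(centralizer ({s} : Set G) ⊓ centralizer ({s * a} : Set G)) := by
  have s0 : s • x 0 = x 1 := hc.ps 0
  have s1 : s • x 1 = x 0 := hc.ps 1
  have s2 : s • x 2 = x 2 := hc.ps 2
  have s3 : s • x 3 = x 3 := hc.ps 3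
  have t0 : (s * a) • x 0 = x 0 := hc.psa 0
  have t1 : (s * a) • x 1 = x 1 := hc.psa 1
  have t2 : (s * a) • x 2 = x 3 := hc.psa 2
  have t3 : (s * a) • x 3 = x 2 := hc.psa 3
  have hA : ({x 0, x 1} : Set α) = fixedBy α (s * a) \ fixedBy α s := by
    have h1 := dicho (S := fixedBy α (s * a)) (Set.toFinite _) (h.fix_le hc.sa2 hc.sa1) hc.ss
      (fix_comm hc.s_sa)
    rcases h1 with h1 | h1
    · exact absurd (s0.symm.trans (h1 (x 0) t0)).symm (hc.ne _ _ (by decide))
    · apply Set.eq_of_subset_of_ncard_le _ _ (Set.toFinite _)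
      · intro y hy
        rcases hy with rfl | rfl
        · exact ⟨t0, fun e => hc.ne _ _ (by decide) (s0.symm.trans e).symm⟩
        · exact ⟨t1, fun e => hc.ne 0 1 (by decide) (s1.symm.trans e)⟩
      · rw [h1, Set.ncard_pair (hc.ne _ _ (by decide))]
  have hB : ({x 2, x 3} : Set α) = fixedBy α s \ fixedBy α (s * a) := by
    have h1 := dicho (S := fixedBy α s) (Set.toFinite _) (h.fix_le hc.ss hc.s1) hc.sa2
      (fix_comm hc.s_sa.symm)
    rcases h1 with h1 | h1
    · exact absurd (t2.symm.trans (h1 (x 2) s2)).symm (hc.ne _ _ (by decide))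
    · apply Set.eq_of_subset_of_ncard_le _ _ (Set.toFinite _)
      · intro y hy
        rcases hy with rfl | rfl
        · exact ⟨s2, fun e => hc.ne _ _ (by decide) (t2.symm.trans e).symm⟩
        · exact ⟨s3, fun e => hc.ne 2 3 (by decide) (t3.symm.trans e)⟩
      · rw [h1, Set.ncard_pair (hc.ne _ _ (by decide))]
  have h1 := card_orb (centralizer ({s} : Set G) ⊓ centralizer ({s * a} : Set G)) (x 0, x 2)
    (({x 0, x 1} : Set α) ×ˢ ({x 2, x 3} : Set α)) (by
    rintro ⟨p, q⟩
    have hss : s ∈ centralizer ({s} : Set G) ⊓ centralizer ({s * a} : Set G) :=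
      Subgroup.mem_inf.2 ⟨Subgroup.mem_centralizer_singleton_iff.2 rfl, Subgroup.mem_centralizer_singleton_iff.2 hc.s_sa⟩
    have hsa : s * a ∈ centralizer ({s} : Set G) ⊓ centralizer ({s * a} : Set G) :=
      Subgroup.mem_inf.2 ⟨Subgroup.mem_centralizer_singleton_iff.2 hc.s_sa.symm, Subgroup.mem_centralizer_singleton_iff.2 rfl⟩
    constructor
    · rintro ⟨hp, hq⟩
      simp only [Set.mem_insert_iff, Set.mem_singleton_iff] at hp hq
      rcases hp with rfl | rfl <;> rcases hq with rfl | rfl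
      · exact ⟨1, Subgroup.one_mem _, one_smul _ _⟩
      · exact ⟨s * a, hsa, Prod.ext t0 t2⟩
      · exact ⟨s, hss, Prod.ext s0 s2⟩
      · refine ⟨s * (s * a), Subgroup.mul_mem _ hss hsa, Prod.ext ?_ ?_⟩
        · change (s * (s * a)) • x 0 = x 1
          rw [mul_smul, t0, s0]
        · change (s * (s * a)) • x 2 = x 3
          rw [mul_smul, t2, s3]
    · rintro ⟨u, hu, e⟩
      obtain ⟨hu1, hu2⟩ := Subgroup.mem_inf.1 hu
      rw [Subgroup.mem_centralizer_singleton_iff] at hu1 hu2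
      have e1 : u • x 0 = p := congrArg Prod.fst e
      have e2 : u • x 2 = q := congrArg Prod.snd e
      refine ⟨?_, ?_⟩
      · rw [hA, ← e1]
        refine ⟨fix_comm hu2 _ t0, fun e => ?_⟩
        have e' : s • u • x 0 = u • x 0 := e
        rw [← mul_smul, ← hu1, mul_smul, s0] at e'
        exact hc.ne _ _ (by decide) (smul_left_cancel u e')
      · rw [hB, ← e2]
        refine ⟨fix_comm hu1 _ s2, fun e => ?_⟩
        have e' : (s * a) • u • x 2 = u • x 2 := e
        rw [← mul_smul, ← hu2, mul_smul, t2] at e'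
        exact hc.ne _ _ (by decide) (smul_left_cancel u e'))
  have h2 : centralizer ({s} : Set G) ⊓ centralizer ({s * a} : Set G) ⊓ stabilizer G ((x 0, x 2) : α × α) =
      stabilizer G x ⊓ centralizer ({s} : Set G) ⊓ centralizer ({s * a} : Set G) := by
    ext u
    simp only [Subgroup.mem_inf, Subgroup.mem_centralizer_singleton_iff,
      mem_stabilizer_iff (a := (x 0, x 2)), mem_stab, Prod.smul_mk, Prod.mk.injEq]
    constructor
    · rintro ⟨⟨h3, h4⟩, h5, h6⟩
      refine ⟨⟨all4 h5 ?_ h6 ?_, h3⟩, h4⟩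
      · rw [← s0, ← mul_smul, h3, mul_smul, h5]
      · rw [← t2, ← mul_smul, h4, mul_smul, h6]
    · rintro ⟨⟨h3, h4⟩, h5⟩
      exact ⟨⟨h4, h5⟩, h3 0, h3 2⟩
  rw [h2] at h1
  rw [← h1]
  congr 1
  rw [Nat.card_coe_set_eq, Set.ncard_prod, Set.ncard_pair (hc.ne _ _ (by decide)), Set.ncard_pair (hc.ne _ _ (by decide))]

section numbers

variable [Finite G] [Finite α] (h : Q4 G α) [FaithfulSMul G α] (hn : 6 ≤ Nat.card α) {x : Fin 4 ↪ α} {a b s : G}
  (hc : Cf x a b s)
include h hn hc

theorem A3 : ((fixedBy α a).ncard * (fixedBy α a).ncard - (fixedBy α a).ncard) *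
      Nat.card ↥(stabilizer G x ⊓ centralizer ({s} : Set G)) =
    (Nat.card α - (fixedBy α a).ncard - 2) *
      Nat.card ↥(stabilizer G x ⊓ centralizer ({a} : Set G)) := by
  rw [A2 h hc.aa hc.pa, ← h.fix_card hn hc.aa hc.pa hc.ss hc.s1, A1 h hc.ss hc.ps]
  have s0 : s • x 0 ≠ x 0 := fun e => hc.ne _ _ (by decide) ((hc.ps 0).symm.trans e).symm
  obtain ⟨u, hu, hu2⟩ := h.conj_all hn hc.aa hc.pa hc.ss s0
  symm
  apply card_eq_of_conj u
  · intro g hg
    obtain ⟨hg1, hg2⟩ := Subgroup.mem_inf.1 hg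
    refine Subgroup.mem_inf.2 ⟨cent_conj hu hg1, ?_⟩
    rw [mem_stabilizer_iff] at hg2 ⊢
    rw [mul_smul, mul_smul, inv_smul_eq_iff.2 hu2.symm, hg2, hu2]
  · intro g hg
    obtain ⟨hg1, hg2⟩ := Subgroup.mem_inf.1 hg
    refine Subgroup.mem_inf.2 ⟨cent_conj' hu hg1, ?_⟩
    rw [mem_stabilizer_iff] at hg2 ⊢
    rw [mul_smul, mul_smul, hu2, hg2, inv_smul_eq_iff, hu2]

omit [Finite α] [FaithfulSMul G α] hn in
theorem B1 : Nat.card (stabilizer G x) *
      Nat.card ↥(stabilizer G x ⊓ centralizer ({s} : Set G) ⊓ centralizer ({s * a} : Set G)) ^ 2 =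
    Nat.card ↥(stabilizer G x ⊓ centralizer ({s} : Set G)) * Nat.card ↥(stabilizer G x ⊓ centralizer ({s} : Set G)) *
      Nat.card ↥(stabilizer G x ⊓ centralizer ({a} : Set G)) := by
  have h1 := four_formula (h.odd x) hc.ss hc.sa2 hc.s_sa
    (fun g hg => normK ![1, 0, 2, 3] ![1, 0, 2, 3] (by decide) hc.ps hg)
    (fun g hg => normK ![0, 1, 3, 2] ![0, 1, 3, 2] (by decide) hc.psa hg)
  rw [h1]
  have h2 : Nat.card ↥(stabilizer G x ⊓ centralizer ({s * a} : Set G)) =
      Nat.card ↥(stabilizer G x ⊓ centralizer ({s} : Set G)) :=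
    (card_cent ![2, 3, 0, 1] ![2, 3, 0, 1] (by decide) hc.pb hc.bs).symm
  have h3 : s * (s * a) = a := by rw [← mul_assoc, hc.ss, one_mul]
  rw [h2, h3]

omit [Finite α] [FaithfulSMul G α] hn in
theorem B2 : Nat.card (stabilizer G x) *
      Nat.card ↥(stabilizer G x ⊓ centralizer ({a} : Set G) ⊓ centralizer ({b} : Set G)) ^ 2 =
    Nat.card ↥(stabilizer G x ⊓ centralizer ({a} : Set G)) ^ 3 := by
  have h1 := four_formula (h.odd x) hc.aa hc.bb hc.ab
    (fun g hg => normK ![1, 0, 3, 2] ![1, 0, 3, 2] (by decide) hc.pa hg)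
    (fun g hg => normK ![2, 3, 0, 1] ![2, 3, 0, 1] (by decide) hc.pb hg)
  rw [h1]
  have h2 : Nat.card ↥(stabilizer G x ⊓ centralizer ({b} : Set G)) =
      Nat.card ↥(stabilizer G x ⊓ centralizer ({a * b} : Set G)) :=
    card_cent ![1, 0, 2, 3] ![1, 0, 2, 3] (by decide) hc.ps hc.sb
  obtain ⟨u, hu1, hu2⟩ := h.conjT hc.aa hc.bb x (cmp x (Equiv.swap 1 2)) ![1, 0, 3, 2] hc.pa (by
    intro i; rw [cmp_apply, cmp_apply, hc.pb]; congr 1; revert i; decide)
  have hu3 : ∀ i, u • x i = x (![0, 2, 1, 3] i) := by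
    intro i; rw [hu2, cmp_apply]; congr 1; revert i; decide
  have h3 : Nat.card ↥(stabilizer G x ⊓ centralizer ({a} : Set G)) =
      Nat.card ↥(stabilizer G x ⊓ centralizer ({b} : Set G)) :=
    card_cent ![0, 2, 1, 3] ![0, 2, 1, 3] (by decide) hu3 hu1
  rw [← h2, ← h3]
  ring

theorem parity : Even (Nat.card α) ↔ Even (fixedBy α a).ncard := by
  classical
  haveI : Fintype α := Fintype.ofFinite _
  have h1 : (MulAction.toPerm a : Equiv.Perm α) ^ 2 = 1 := by
    ext y; rw [pow_two, Equiv.Perm.mul_apply]; exact mul_self_smul hc.aa y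
  have h2 := Equiv.Perm.two_dvd_card_support h1
  have h3 : ((MulAction.toPerm a : Equiv.Perm α).support : Set α) = (fixedBy α a)ᶜ := by
    ext y; simp [Equiv.Perm.mem_support]
  have h4 : (fixedBy α a).ncard + ((fixedBy α a)ᶜ).ncard = Nat.card α := Set.ncard_add_ncard_compl _
  rw [← h3, Set.ncard_coe_finset] at h4
  rw [← h4, Nat.even_add]
  have : Even (MulAction.toPerm a : Equiv.Perm α).support.card := (even_iff_two_dvd).2 h2
  tauto

theorem f_cases : (fixedBy α a).ncard = 2 ∨ (fixedBy α a).ncard = 3 := by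
  have h1 := h.fix_le hc.aa hc.a1
  have h2 : 2 ≤ (fixedBy α a).ncard := by
    rw [← h.fix_card hn hc.aa hc.pa hc.ss hc.s1, ← Set.ncard_pair (hc.ne 2 3 (by decide))]
    apply Set.ncard_le_ncard _ (Set.toFinite _)
    intro y hy
    rcases hy with rfl | rfl
    · exact hc.ps 2
    · exact hc.ps 3
  omega

end numbers

end Cfsg.Agent.H59.FourT
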