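import Cfsg.Agent.H59.FourT3

set_option autoImplicit false

/-!
4-transitive groups with 4-point stabilizers of odd order: conclusion.
-/

namespace Cfsg.Agent.H59.FourT

open MulAction Subgroup Cfsg.Agent.H59.FourF

variable {G α : Type*} [Group G] [MulAction G α]

section types

variable [Finite G] [Finite α] (h : Q4 G α) [FaithfulSMul G α] (hn : 6 ≤ Nat.card α) {x : Fin 4 ↪ α} {a b s : G}
  (hc : Cf x a b s)
include h hn hc

/-- in type II the sets of fixed points have pairwise differences with two elements -/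
theorem diffs {q : α} (hq : a • q = q) (hbq : b • q ≠ q) :
    (fixedBy α a \ fixedBy α b).ncard = 2 ∧ (fixedBy α b \ fixedBy α a).ncard = 2 ∧
      (fixedBy α (a * b) \ fixedBy α a).ncard = 2 := by
  have fa := h.fix_le hc.aa hc.a1
  have fb := h.fix_card hn hc.aa hc.pa hc.bb hc.b1
  have fc := h.fix_card hn hc.aa hc.pa hc.cc hc.c1
  refine ⟨?_, ?_, ?_⟩
  · rcases dicho (S := fixedBy α a) (Set.toFinite _) fa hc.bb (fix_comm hc.ab.symm) with h1 | h1
    · exact absurd (h1 q hq) hbq
    · exact h1
  · rcases dicho (S := fixedBy α b) (Set.toFinite _) (fb ▸ fa) hc.aa (fix_comm hc.ab) with h1 | h1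
    · exfalso
      have h2 : fixedBy α b = fixedBy α a := by
        apply Set.eq_of_subset_of_ncard_le _ _ (Set.toFinite _)
        · intro y hy; exact h1 y hy
        · rw [fb]
      have : q ∈ fixedBy α b := by rw [h2]; exact hq
      exact hbq this
    · exact h1
  · rcases dicho (S := fixedBy α (a * b)) (Set.toFinite _) (fc ▸ fa) hc.aa
      (fix_comm (by rw [mul_assoc a b a, ← hc.ab])) with h1 | h1
    · exfalso
      have h2 : fixedBy α (a * b) = fixedBy α a := by
        apply Set.eq_of_subset_of_ncard_le _ _ (Set.toFinite _)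
        · intro y hy; exact h1 y hy
        · rw [fc]
      have h3 : q ∈ fixedBy α (a * b) := by rw [h2]; exact hq
      have h4 : (a * b) • q = q := h3
      apply hbq
      rw [mul_smul] at h4
      have : a • a • b • q = a • q := congrArg (fun z => a • z) h4
      rw [mul_self_smul hc.aa, hq] at this
      exact this
    · exact h1

theorem cardR {q : α} (hq : a • q = q) (hbq : b • q ≠ q) :
    (R a b : Set α).ncard + (fixedBy α a).ncard + 4 = Nat.card α := by
  obtain ⟨h1, h2, h3⟩ := diffs h hn hc hq hbq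
  have e1 : (R a b : Set α) = (fixedBy α a ∪ ((fixedBy α b \ fixedBy α a) ∪ (fixedBy α (a * b) \ fixedBy α a)))ᶜ := by
    ext y
    simp only [R, Set.mem_setOf_eq, Set.mem_compl_iff, Set.mem_union, Set.mem_diff, mem_fixedBy]
    tauto
  have e2 : (fixedBy α a ∪ ((fixedBy α b \ fixedBy α a) ∪ (fixedBy α (a * b) \ fixedBy α a))).ncard =
      (fixedBy α a).ncard + 4 := by
    rw [Set.ncard_union_eq, Set.ncard_union_eq, h2, h3]
    · rw [Set.disjoint_left]
      rintro y ⟨h4, h5⟩ ⟨h6, -⟩
      apply h5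
      have h4' : b • y = y := h4
      have h6' : (a * b) • y = y := h6
      rw [mul_smul, h4'] at h6'
      exact h6'
    · rw [Set.disjoint_left]
      rintro y h4 (⟨-, h5⟩ | ⟨-, h5⟩) <;> exact h5 h4
  have e3 := Set.ncard_add_ncard_compl (fixedBy α a ∪ ((fixedBy α b \ fixedBy α a) ∪ (fixedBy α (a * b) \ fixedBy α a)))
  rw [e2, ← e1] at e3
  omega

theorem CII {q : α} (hq : a • q = q) (hbq : b • q ≠ q) :
    Nat.card ↥(centralizer ({s} : Set G) ⊓ centralizer ({s * a} : Set G)) =
      Nat.card ↥(centralizer ({a} : Set G) ⊓ centralizer ({b} : Set G)) := by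
  obtain ⟨h1, h2, h3⟩ := diffs h hn hc hq hbq
  obtain ⟨r, hr, hr2⟩ : (fixedBy α b \ fixedBy α a).Nonempty := by
    rw [← Set.ncard_pos (Set.toFinite _)]; omega
  have hr' : b • r = r := hr
  have har : a • r ≠ r := hr2
  have hD : D4 q (b • q) r (a • r) := by
    refine ⟨Ne.symm hbq, ?_, ?_, ?_, ?_, Ne.symm har⟩
    · rintro rfl; exact har hq
    · intro e
      have : a • q = r := by rw [e, mul_self_smul hc.aa]
      rw [hq] at this; rw [this] at hq; exact har hq
    · intro e
      have : q = b • r := by rw [← e, mul_self_smul hc.bb]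
      rw [hr'] at this; rw [← this] at har; exact har hq
    · intro e
      have e1 : a • b • q = b • q := by rw [← mul_smul, hc.ab, mul_smul, hq]
      have : b • q = r := by
        rw [← e1, e, mul_self_smul hc.aa]
      rw [this] at e; exact har e.symm
  obtain ⟨u, hu1, hu2, hu3⟩ := h.pairT hc.ss hc.sa2 hc.s_sa hc.bb hc.aa hc.ab.symm x (e4 _ _ _ _ hD)
    ![1, 0, 2, 3] ![0, 1, 3, 2] hc.ps (by
      apply all4
      · exact rfl
      · exact mul_self_smul hc.bb _
      · exact hr'
      · change b • a • r = a • r; rw [← mul_smul, ← hc.ab, mul_smul, hr'])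
    hc.psa (by
      apply all4
      · exact hq
      · change a • b • q = b • q; rw [← mul_smul, hc.ab, mul_smul, hq]
      · exact rfl
      · exact mul_self_smul hc.aa _)
  apply card_eq_of_conj u
  · intro g hg
    obtain ⟨hg1, hg2⟩ := Subgroup.mem_inf.1 hg
    exact Subgroup.mem_inf.2 ⟨cent_conj hu2 hg2, cent_conj hu1 hg1⟩
  · intro g hg
    obtain ⟨hg1, hg2⟩ := Subgroup.mem_inf.1 hg
    exact Subgroup.mem_inf.2 ⟨cent_conj' hu1 hg2, cent_conj' hu2 hg1⟩

/-- type II -/
theorem typeII {q : α} (hq : a • q = q) (hbq : b • q ≠ q) (hdvd : Nat.card (stabilizer G x) ∣ (Nat.card α - 4).factorial) :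
    Nat.card α = 11 ∧ Nat.card (stabilizer G x) = 1 := by
  obtain ⟨d1, d2, d3⟩ := diffs h hn hc hq hbq
  have hR := cardR h hn hc hq hbq
  have hCII := CII h hn hc hq hbq
  have hC1 := C1 h hc
  have hC2 := C2 h hc
  have hA := A3 h hn hc
  have hB1 := B1 h hc
  have hB2 := B2 h hc
  have hf := f_cases h hn hc
  set f := (fixedBy α a).ncard with hfdef
  set N := Nat.card α with hN
  set σ := Nat.card ↥(stabilizer G x ⊓ centralizer ({s} : Set G)) with hσ
  set β := Nat.card ↥(stabilizer G x ⊓ centralizer ({a} : Set G)) with hβ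
  set w := Nat.card ↥(stabilizer G x ⊓ centralizer ({s} : Set G) ⊓ centralizer ({s * a} : Set G)) with hw
  set v := Nat.card ↥(stabilizer G x ⊓ centralizer ({a} : Set G) ⊓ centralizer ({b} : Set G)) with hv
  set k := Nat.card (stabilizer G x) with hk
  have hσ0 : 0 < σ := Nat.card_pos
  have hβ0 : 0 < β := Nat.card_pos
  have hw0 : 0 < w := Nat.card_pos
  have hv0 : 0 < v := Nat.card_pos
  have hk0 : 0 < k := Nat.card_pos
  have e1 : 4 * w = (R a b : Set α).ncard * v := by rw [hC2, hCII, hC1]
  obtain ⟨r, hr⟩ : ∃ r, r = (R a b : Set α).ncard := ⟨_, rfl⟩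
  rw [← hr] at e1 hR
  -- w * β = σ * v
  have e2 : w * β = σ * v := by
    have e3 : k * ((w * β) ^ 2) * β = k * ((σ * v) ^ 2) * β := by
      calc k * ((w * β) ^ 2) * β = (k * w ^ 2) * β ^ 3 := by ring
        _ = (σ * σ * β) * (k * v ^ 2) := by rw [hB1, ← hB2]
        _ = k * ((σ * v) ^ 2) * β := by ring
    have e4 := Nat.eq_of_mul_eq_mul_right hβ0 e3
    have e5 := Nat.eq_of_mul_eq_mul_left hk0 e4
    exact Nat.pow_left_injective (n := 2) (by norm_num) e5
  rcases hf with hf | hf
  · exfalso
    rw [hf] at hA hR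
    have hNr : N = r + 6 := by omega
    rw [hNr] at hA
    have hA' : 2 * σ = (r + 2) * β := by
      have : r + 6 - 2 - 2 = r + 2 := by omega
      rw [this] at hA; omega
    have e6 : 2 * w * β = (r + 2) * v * β := by
      calc 2 * w * β = 2 * (w * β) := by ring
        _ = (2 * σ) * v := by rw [e2]; ring
        _ = (r + 2) * v * β := by rw [hA']; ring
    have e7 := Nat.eq_of_mul_eq_mul_right hβ0 e6
    nlinarith
  · rw [hf] at hA hR
    have hNr : N = r + 7 := by omega
    have hA' : 6 * σ = (r + 2) * β := by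
      have : N - 3 - 2 = r + 2 := by omega
      rw [this] at hA; omega
    have e6 : 6 * w * β = (r + 2) * v * β := by
      calc 6 * w * β = 6 * (w * β) := by ring
        _ = (6 * σ) * v := by rw [e2]; ring
        _ = (r + 2) * v * β := by rw [hA']; ring
    have e7 := Nat.eq_of_mul_eq_mul_right hβ0 e6
    have e8 : 3 * (r * v) = 2 * ((r + 2) * v) := by rw [← e1, ← e7]; ring
    have e9 : r = 4 := by
      have : (3 * r) * v = (2 * (r + 2)) * v := by linarith
      have := Nat.eq_of_mul_eq_mul_right hv0 this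
      omega
    have hN11 : N = 11 := by omega
    refine ⟨hN11, ?_⟩
    have hσβ : σ = β := by rw [e9] at hA'; omega
    -- v = 1
    have hv1 : stabilizer G x ⊓ centralizer ({a} : Set G) ⊓ centralizer ({b} : Set G) = ⊥ := by
      rw [eq_bot_iff]
      intro g hg
      obtain ⟨hg1, hg3⟩ := Subgroup.mem_inf.1 hg
      obtain ⟨hg1, hg2⟩ := Subgroup.mem_inf.1 hg1
      rw [Subgroup.mem_centralizer_singleton_iff] at hg2 hg3
      have hodd := odd_orderOf (h.odd x) hg1
      rw [Subgroup.mem_bot]
      have hcm : g * (a * b) = (a * b) * g := by rw [← mul_assoc, hg2, mul_assoc, hg3, mul_assoc]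
      have hRx : (Set.range x) = (R a b : Set α) := by
        apply Set.eq_of_subset_of_ncard_le _ _ (Set.toFinite _)
        · rintro _ ⟨i, rfl⟩
          refine ⟨fun e => ?_, fun e => ?_, fun e => ?_⟩
          · rw [hc.pa] at e
            exact (by decide : ∀ i : Fin 4, (![1, 0, 3, 2] : Fin 4 → Fin 4) i ≠ i) i (x.injective e)
          · rw [hc.pb] at e
            exact (by decide : ∀ i : Fin 4, (![2, 3, 0, 1] : Fin 4 → Fin 4) i ≠ i) i (x.injective e)
          · rw [hc.pc] at e
            exact (by decide : ∀ i : Fin 4, (![3, 2, 1, 0] : Fin 4 → Fin 4) i ≠ i) i (x.injective e)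
        · rw [← hr, e9, ← Set.image_univ, Set.ncard_image_of_injective _ x.injective, Set.ncard_univ, Nat.card_fin]
      have pres : ∀ (t r : G), g * t = t * g → g * r = r * g → ∀ y ∈ fixedBy α t \ fixedBy α r, g • y ∈ fixedBy α t \ fixedBy α r := by
        rintro t r ht hr y ⟨h5, h6⟩
        refine ⟨fix_comm ht y h5, fun h7 => h6 ?_⟩
        have h7' : r • g • y = g • y := h7
        rw [← mul_smul, ← hr, mul_smul] at h7'
        exact smul_left_cancel g h7'
      apply FaithfulSMul.eq_of_smul_eq_smul (α := α)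
      intro y
      rw [one_smul]
      by_cases hy : y ∈ (R a b : Set α)
      · rw [← hRx] at hy
        obtain ⟨i, rfl⟩ := hy
        exact mem_stab.1 hg1 i
      · by_cases hya : y ∈ fixedBy α a
        · by_cases hyb : y ∈ fixedBy α b
          · refine fix_of_odd_two (S := fixedBy α a ∩ fixedBy α b) (Set.toFinite _) ?_ hodd ?_ ⟨hya, hyb⟩
            · have := Set.ncard_inter_add_ncard_diff_eq_ncard (fixedBy α a) (fixedBy α b) (Set.toFinite _)
              omega
            · rintro z ⟨hz1, hz2⟩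
              exact ⟨fix_comm hg2 z hz1, fix_comm hg3 z hz2⟩
          · exact fix_of_odd_two (S := fixedBy α a \ fixedBy α b) (Set.toFinite _) d1.le hodd (pres a b hg2 hg3) ⟨hya, hyb⟩
        · by_cases hyb : y ∈ fixedBy α b
          · exact fix_of_odd_two (S := fixedBy α b \ fixedBy α a) (Set.toFinite _) d2.le hodd (pres b a hg3 hg2) ⟨hyb, hya⟩
          · have hyc : y ∈ fixedBy α (a * b) := by
              by_contra hyc
              exact hy ⟨hya, hyb, hyc⟩
            exact fix_of_odd_two (S := fixedBy α (a * b) \ fixedBy α a) (Set.toFinite _) d3.le hodd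
              (pres (a * b) a hcm hg2) ⟨hyc, hya⟩
    have hv1' : v = 1 := by rw [hv, hv1, Subgroup.card_bot]
    have hk3 : k = β ^ 3 := by rw [← hB2, hv1']; ring
    rw [hN11] at hdvd
    have hβodd : Odd β := (h.odd x).of_dvd_nat (Subgroup.card_dvd_of_le inf_le_left)
    have h7 : (11 - 4).factorial = 5040 := by decide
    rw [h7, hk3] at hdvd
    have hβ17 : β ≤ 17 := by
      by_contra hlt
      push Not at hlt
      have h8 : 18 ^ 3 ≤ β ^ 3 := Nat.pow_le_pow_left hlt 3
      have h9 := Nat.le_of_dvd (by norm_num) hdvd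
      omega
    have hβ1 : β = 1 := by
      clear_value β
      interval_cases β
      · rfl
      all_goals first
        | exact absurd hdvd (by decide)
        | exact absurd hβodd (by decide)
    rw [hk3, hβ1]
    norm_num

/-- type I -/
theorem typeI (hI : ∀ q : α, a • q = q → b • q = q) :
    (Nat.card α = 6 ∧ Nat.card (stabilizer G x) = 1) ∨ (Nat.card α = 7 ∧ Nat.card (stabilizer G x) = 3) ∨
      (Nat.card α = 11 ∧ Nat.card (stabilizer G x) = 1) := by
  have fa := h.fix_le hc.aa hc.a1
  have fb := h.fix_card hn hc.aa hc.pa hc.bb hc.b1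
  have fc := h.fix_card hn hc.aa hc.pa hc.cc hc.c1
  have fs := h.fix_card hn hc.aa hc.pa hc.ss hc.s1
  have hf := f_cases h hn hc
  have hpar := parity h hn hc
  have hab' : fixedBy α a = fixedBy α b := by
    apply Set.eq_of_subset_of_ncard_le _ _ (Set.toFinite _)
    · intro y hy; exact hI y hy
    · rw [fb]
  have hac' : fixedBy α a = fixedBy α (a * b) := by
    apply Set.eq_of_subset_of_ncard_le _ _ (Set.toFinite _)
    · intro y hy
      have hy' : a • y = y := hy
      change (a * b) • y = y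
      rw [mul_smul, hI y hy, hy']
    · rw [fc]
  have s0 : s • x 0 = x 1 := hc.ps 0
  have s1 : s • x 1 = x 0 := hc.ps 1
  have s2 : s • x 2 = x 2 := hc.ps 2
  have s3 : s • x 3 = x 3 := hc.ps 3
  have a0 : a • x 0 = x 1 := hc.pa 0
  have a1 : a • x 1 = x 0 := hc.pa 1
  have a2 : a • x 2 = x 3 := hc.pa 2
  have a3 : a • x 3 = x 2 := hc.pa 3
  -- the difference of fixed point sets
  have hd : (fixedBy α a \ fixedBy α s).ncard = 2 := by
    rcases dicho (S := fixedBy α a) (Set.toFinite _) fa hc.ss (fix_comm hc.sa) with h1 | h1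
    · exfalso
      have h2 : fixedBy α a = fixedBy α s := by
        apply Set.eq_of_subset_of_ncard_le _ _ (Set.toFinite _)
        · intro y hy; exact h1 y hy
        · rw [fs]
      have h3 : x 2 ∈ fixedBy α a := by rw [h2]; exact s2
      exact hc.ne 3 2 (by decide) (a2.symm.trans h3)
    · exact h1
  have hd' : (fixedBy α s \ fixedBy α a).ncard = 2 := by
    rcases dicho (S := fixedBy α s) (Set.toFinite _) (fs ▸ fa) hc.aa (fix_comm hc.sa.symm) with h1 | h1
    · exact absurd (a2.symm.trans (h1 (x 2) s2)) (hc.ne _ _ (by decide))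
    · exact h1
  have hsdiff : ({x 2, x 3} : Set α) = fixedBy α s \ fixedBy α a := by
    apply Set.eq_of_subset_of_ncard_le _ _ (Set.toFinite _)
    · intro y hy
      rcases hy with rfl | rfl
      · exact ⟨s2, fun e => hc.ne 3 2 (by decide) (a2.symm.trans e)⟩
      · exact ⟨s3, fun e => hc.ne 2 3 (by decide) (a3.symm.trans e)⟩
    · rw [hd', Set.ncard_pair (hc.ne _ _ (by decide))]
  -- J
  obtain ⟨J, hJ⟩ : ∃ J : Subgroup G, J = stabilizer G x ⊓ fixingSubgroup G (fixedBy α s) := ⟨_, rfl⟩
  have hJm : ∀ g : G, g ∈ J ↔ (∀ i, g • x i = x i) ∧ ∀ q ∈ fixedBy α s, g • q = q := by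
    intro g
    rw [hJ, Subgroup.mem_inf, mem_stab, mem_fixingSubgroup_iff]
  have hJodd : Odd (Nat.card J) := (h.odd x).of_dvd_nat (Subgroup.card_dvd_of_le (by rw [hJ]; exact inf_le_left))
  -- elements of the four-group normalize J
  have hJn : ∀ (π : Fin 4 → Fin 4), (∀ i, π (π i) = i) → ∀ v : G, (∀ i, v • x i = x (π i)) →
      (∀ q ∈ fixedBy α a, v • q = q) → ∀ g ∈ J, v * g * v⁻¹ ∈ J := by
    intro π hπ v hv hva g hg
    rw [hJm] at hg ⊢
    refine ⟨mem_stab.1 (normK π π hπ hv (mem_stab.2 hg.1)), ?_⟩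
    intro q hq
    by_cases hqa : q ∈ fixedBy α a
    · have h1 : v⁻¹ • q = q := by rw [inv_smul_eq_iff, hva q hqa]
      rw [mul_smul, mul_smul, h1, hg.2 q hq, hva q hqa]
    · have h2 : q ∈ fixedBy α s \ fixedBy α a := ⟨hq, hqa⟩
      rw [← hsdiff] at h2
      have h3 := mem_stab.1 (normK π π hπ hv (mem_stab.2 hg.1))
      rcases h2 with rfl | h2
      · exact h3 2
      · rw [Set.mem_singleton_iff] at h2
        rw [h2]; exact h3 3
  have hva : ∀ q ∈ fixedBy α a, a • q = q := fun q hq => hq
  have hvb : ∀ q ∈ fixedBy α a, b • q = q := fun q hq => hI q hq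
  have haJ := hJn ![1, 0, 3, 2] (by decide) a hc.pa hva
  have hbJ := hJn ![2, 3, 0, 1] (by decide) b hc.pb hvb
  -- J fixes the fixed points of a
  have hcent : ∀ v : G, fixedBy α a = fixedBy α v → ∀ g ∈ J, v * g = g * v → ∀ q ∈ fixedBy α a, g • q = q := by
    intro v hv g hg hvg q hq
    have hodd := odd_orderOf hJodd hg
    rw [hJm] at hg
    by_cases hqs : q ∈ fixedBy α s
    · exact hg.2 q hqs
    · refine fix_of_odd_two (S := fixedBy α a \ fixedBy α s) (Set.toFinite _) hd.le hodd ?_ ⟨hq, hqs⟩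
      rintro y ⟨hy1, hy2⟩
      refine ⟨?_, fun hy3 => hy2 ?_⟩
      · rw [hv] at hy1 ⊢
        exact fix_comm hvg.symm y hy1
      · have h5 := hg.2 _ hy3
        have h6 : g • y = y := smul_left_cancel g h5
        rw [h6] at hy3; exact hy3
  have hJfix : ∀ q ∈ fixedBy α a, ∀ g ∈ J, g • q = q := by
    intro q hq
    have h1 : J ≤ stabilizer G q := by
      apply Cfsg.Agent.H52.four_group_le J hJodd a b hc.aa hc.bb hc.ab haJ hbJ
      · intro g hg hag
        exact hcent a rfl g hg hag q hq
      · intro g hg hag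
        exact hcent b hab' g hg hag q hq
      · intro g hg hag
        exact hcent (a * b) hac' g hg hag q hq
    intro g hg
    exact h1 hg
  -- J = 1
  have hJ1 : J = ⊥ := by
    obtain ⟨q0, hq0, hq0s⟩ : (fixedBy α a \ fixedBy α s).Nonempty := by
      rw [← Set.ncard_pos (Set.toFinite _)]; omega
    have hq0s' : s • q0 ≠ q0 := hq0s
    have hq00 : q0 ≠ x 0 := by
      rintro rfl; exact hc.ne 1 0 (by decide) (a0.symm.trans hq0)
    have hq01 : q0 ≠ x 1 := by
      rintro rfl; exact hc.ne 0 1 (by decide) (a1.symm.trans hq0)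
    have hsx0 : s • x 0 ≠ x 0 := by rw [s0]; exact hc.ne _ _ (by decide)
    rw [eq_bot_iff]
    intro g hg
    rw [Subgroup.mem_bot]
    apply FaithfulSMul.eq_of_smul_eq_smul (α := α)
    intro y
    rw [one_smul]
    have hg' := (hJm g).1 hg
    by_cases hys : y ∈ fixedBy α s
    · exact hg'.2 y hys
    by_cases hy0 : y = x 0
    · rw [hy0]; exact hg'.1 0
    by_cases hy1 : y = x 1
    · rw [hy1]; exact hg'.1 1
    have hys' : s • y ≠ y := hys
    have hD1 : D4 (x 0) (s • x 0) q0 (s • q0) := Q4.D4.of hc.ss hsx0 hq0s' hq00 (by rw [s0]; exact hq01)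
    have hD2 : D4 (x 0) (s • x 0) y (s • y) := Q4.D4.of hc.ss hsx0 hys' hy0 (by rw [s0]; exact hy1)
    obtain ⟨u, hu1, hu2⟩ := h.conjT hc.ss hc.ss (e4 _ _ _ _ hD1) (e4 _ _ _ _ hD2) ![1, 0, 3, 2] (by
        apply all4
        · exact rfl
        · exact mul_self_smul hc.ss _
        · exact rfl
        · exact mul_self_smul hc.ss _) (by
        apply all4
        · exact rfl
        · exact mul_self_smul hc.ss _
        · exact rfl
        · exact mul_self_smul hc.ss _)
    have hus : u * s = s * u := by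
      calc u * s = (u * s * u⁻¹) * u := by group
        _ = s * u := by rw [hu1]
    have hu0 : u • x 0 = x 0 := hu2 0
    have hux1 : u • x 1 = x 1 := by
      have : u • s • x 0 = s • x 0 := hu2 1
      rwa [s0] at this
    have huq : u • q0 = y := hu2 2
    have h5 : u⁻¹ * g * u ∈ J := by
      rw [hJm]
      have h6 : ∀ q ∈ fixedBy α s, (u⁻¹ * g * u) • q = q := by
        intro q hq
        rw [mul_smul, mul_smul, inv_smul_eq_iff]
        exact hg'.2 _ (fix_comm hus q hq)
      refine ⟨?_, h6⟩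
      apply all4
      · rw [mul_smul, mul_smul, inv_smul_eq_iff, hu0]; exact hg'.1 0
      · rw [mul_smul, mul_smul, inv_smul_eq_iff, hux1]; exact hg'.1 1
      · exact h6 _ s2
      · exact h6 _ s3
    have h7 := hJfix q0 hq0 _ h5
    rw [mul_smul, mul_smul, huq, inv_smul_eq_iff, huq] at h7
    exact h7
  -- σ = 1
  have hσ1 : stabilizer G x ⊓ centralizer ({s} : Set G) = ⊥ := by
    rw [eq_bot_iff, ← hJ1]
    intro g hg
    obtain ⟨hg1, hg2⟩ := Subgroup.mem_inf.1 hg
    rw [Subgroup.mem_centralizer_singleton_iff] at hg2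
    have hodd := odd_orderOf (h.odd x) hg1
    rw [mem_stab] at hg1
    rw [hJm]
    refine ⟨hg1, ?_⟩
    intro q hq
    by_cases hqa : q ∈ fixedBy α a
    · refine fix_of_odd_two (S := fixedBy α s ∩ fixedBy α a) (Set.toFinite _) ?_ hodd ?_ ⟨hq, hqa⟩
      · have := Set.ncard_inter_add_ncard_diff_eq_ncard (fixedBy α s) (fixedBy α a) (Set.toFinite _)
        omega
      · rintro z ⟨hz1, hz2⟩
        refine ⟨fix_comm hg2 z hz1, ?_⟩
        by_contra hne
        have h8 : g • z ∈ fixedBy α s \ fixedBy α a := ⟨fix_comm hg2 z hz1, hne⟩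
        rw [← hsdiff] at h8
        have h9 : z = x 2 ∨ z = x 3 := by
          rcases h8 with h8 | h8
          · left; rw [← hg1 2] at h8; exact smul_left_cancel g h8
          · right; rw [Set.mem_singleton_iff, ← hg1 3] at h8; exact smul_left_cancel g h8
        rcases h9 with rfl | rfl
        · exact hc.ne 3 2 (by decide) (a2.symm.trans hz2)
        · exact hc.ne 2 3 (by decide) (a3.symm.trans hz2)
    · have h8 : q ∈ fixedBy α s \ fixedBy α a := ⟨hq, hqa⟩
      rw [← hsdiff] at h8
      rcases h8 with rfl | h8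
      · exact hg1 2
      · rw [Set.mem_singleton_iff] at h8; rw [h8]; exact hg1 3
  have hw1 : stabilizer G x ⊓ centralizer ({s} : Set G) ⊓ centralizer ({s * a} : Set G) = ⊥ := by
    rw [hσ1, bot_inf_eq]
  have hA := A3 h hn hc
  have hB1 := B1 h hc
  rw [hσ1] at hA
  rw [hw1, hσ1] at hB1
  simp only [Subgroup.card_bot, mul_one, one_pow, one_mul] at hA hB1
  rw [← hB1] at hA
  set N := Nat.card α with hN
  set k := Nat.card (stabilizer G x) with hk
  have hkodd : Odd k := h.odd x
  rcases hf with hf | hf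
  · left
    rw [hf] at hA hpar
    have hNe : Even N := hpar.2 (by decide)
    obtain ⟨m, hm⟩ : ∃ m, N = m + 6 := ⟨N - 6, by omega⟩
    have h2 : (m + 2) * k = 2 := by
      have : N - 2 - 2 = m + 2 := by omega
      rw [this] at hA; omega
    have h3 : k = 1 := by
      obtain ⟨l, hl⟩ := hkodd
      rw [hl] at h2 ⊢
      rcases Nat.eq_zero_or_pos l with h4 | h4
      · omega
      · nlinarith
    refine ⟨?_, h3⟩
    rw [h3] at h2; omega
  · right
    rw [hf] at hA hpar
    have hNo : ¬ Even N := fun h4 => absurd (hpar.1 h4) (by decide)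
    obtain ⟨m, hm⟩ : ∃ m, N = m + 6 := ⟨N - 6, by omega⟩
    have h2 : (m + 1) * k = 6 := by
      have : N - 3 - 2 = m + 1 := by omega
      rw [this] at hA; omega
    have h3 : k ∣ 6 := ⟨m + 1, by rw [← h2]; ring⟩
    have h4 : k ≤ 6 := Nat.le_of_dvd (by norm_num) h3
    clear_value k
    interval_cases k
    · omega
    · right; exact ⟨by omega, rfl⟩
    · exact absurd hkodd (by decide)
    · left; exact ⟨by omega, rfl⟩
    · exact absurd hkodd (by decide)
    · omega
    · exact absurd hkodd (by decide)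

end types

theorem main [Finite G] [Finite α] (h : Q4 G α) [FaithfulSMul G α] (hn : 6 ≤ Nat.card α) (x : Fin 4 ↪ α)
    (hdvd : Nat.card (stabilizer G x) ∣ (Nat.card α - 4).factorial) :
    (Nat.card α = 6 ∧ Nat.card (stabilizer G x) = 1) ∨ (Nat.card α = 7 ∧ Nat.card (stabilizer G x) = 3) ∨
      (Nat.card α = 11 ∧ Nat.card (stabilizer G x) = 1) := by
  obtain ⟨a, b, s, hc⟩ := h.exists_cf x
  by_cases hI : ∀ q : α, a • q = q → b • q = q
  · exact typeI h hn hc hI
  · push Not at hI
    obtain ⟨q, hq, hbq⟩ := hI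
    exact Or.inr (Or.inr (typeII h hn hc hq hbq hdvd))

theorem Q4.of [Finite G] (htr : ∀ y z : Fin 4 ↪ α, ∃ g : G, g • y = z) (x : Fin 4 ↪ α)
    (hodd : Odd (Nat.card (stabilizer G x))) : Q4 G α := by
  refine ⟨?_, ?_⟩
  · intro y z
    obtain ⟨g, hg⟩ := htr y z
    exact ⟨g, fun i => DFunLike.congr_fun hg i⟩
  · intro y
    obtain ⟨g, hg⟩ := htr y x
    have : Nat.card (stabilizer G y) = Nat.card (stabilizer G x) := by
      apply card_eq_of_conj g
      · intro k hk
        rw [mem_stabilizer_iff] at hk ⊢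
        rw [mul_smul, mul_smul, inv_smul_eq_iff.2 hg.symm, hk, hg]
      · intro k hk
        rw [mem_stabilizer_iff] at hk ⊢
        rw [mul_smul, mul_smul, hg, hk, inv_smul_eq_iff, hg]
    rw [this]; exact hodd

theorem Q4.card_eq [Finite G] [Fintype α] (h : Q4 G α) (x : Fin 4 ↪ α) :
    Nat.card G = (Fintype.card α).descFactorial 4 * Nat.card (stabilizer G x) := by
  classical
  haveI : IsPretransitive G (Fin 4 ↪ α) := ⟨fun y z => by
    obtain ⟨g, hg⟩ := h.tr y z
    exact ⟨g, DFunLike.ext _ _ hg⟩⟩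
  rw [← (stabilizer G x).card_mul_index, MulAction.index_stabilizer_of_transitive, mul_comm,
    Nat.card_eq_fintype_card (α := Fin 4 ↪ α), Fintype.card_embedding_eq, Fintype.card_fin]

theorem main' [Finite G] [Fintype α] (h : Q4 G α) [FaithfulSMul G α] (x : Fin 4 ↪ α)
    (hGdvd : Nat.card G ∣ (Fintype.card α).factorial) :
    ((Fintype.card α = 4 ∨ Fintype.card α = 5) ∧ (Fintype.card α).factorial ≤ Nat.card G) ∨
    ((Fintype.card α = 6 ∨ Fintype.card α = 7) ∧ 2 * Nat.card G = (Fintype.card α).factorial) ∨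
      (Fintype.card α = 11 ∧ Nat.card G = 7920) := by
  have hn4 : 4 ≤ Fintype.card α := by
    have := Fintype.card_le_of_embedding x
    rwa [Fintype.card_fin] at this
  have hcard := h.card_eq x
  have hkpos : 0 < Nat.card (stabilizer G x) := Nat.card_pos
  by_cases hn6 : Fintype.card α < 6
  · left
    refine ⟨by omega, ?_⟩
    rw [hcard]
    have h1 : Fintype.card α = 4 ∨ Fintype.card α = 5 := by omega
    rcases h1 with h1 | h1 <;> rw [h1]
    · have : (4 : ℕ).factorial = (4 : ℕ).descFactorial 4 := by decide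
      rw [this]; exact Nat.le_mul_of_pos_right _ hkpos
    · have : (5 : ℕ).factorial = (5 : ℕ).descFactorial 4 := by decide
      rw [this]; exact Nat.le_mul_of_pos_right _ hkpos
  push Not at hn6
  have hfac : ((Fintype.card α) - 4).factorial * (Fintype.card α).descFactorial 4 = (Fintype.card α).factorial :=
    Nat.factorial_mul_descFactorial hn4
  have hdpos : 0 < (Fintype.card α).descFactorial 4 := Nat.descFactorial_pos.2 hn4
  have hdvd : Nat.card (stabilizer G x) ∣ (Nat.card α - 4).factorial := by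
    rw [Nat.card_eq_fintype_card (α := α)]
    rw [hcard, ← hfac, mul_comm ((Fintype.card α) - 4).factorial] at hGdvd
    exact Nat.dvd_of_mul_dvd_mul_left hdpos hGdvd
  rcases main h (by rw [Nat.card_eq_fintype_card]; exact hn6) x hdvd with ⟨h1, h2⟩ | ⟨h1, h2⟩ | ⟨h1, h2⟩
  · right; left
    rw [Nat.card_eq_fintype_card] at h1
    refine ⟨Or.inl h1, ?_⟩
    rw [hcard, h1, h2]; decide
  · right; left
    rw [Nat.card_eq_fintype_card] at h1
    refine ⟨Or.inr h1, ?_⟩
    rw [hcard, h1, h2]; decide
  · right; right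
    rw [Nat.card_eq_fintype_card] at h1
    refine ⟨h1, ?_⟩
    rw [hcard, h1, h2]; decide

end Cfsg.Agent.H59.FourT
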