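import Mathlib

/-!
The Hessenberg determinant `∑ sign κ ∏ h (i + 1 - κ i)` in a non-commutative ring.
-/

set_option autoImplicit false

namespace Cfsg.Agent.H59.Hess

variable {R : Type*} [Ring R] (h : ℕ → R)

/-- a term of the determinant, first column shifted by `k` -/
def term (n k : ℕ) (κ : Equiv.Perm (Fin n)) : R :=
  if ∀ i, (κ i).val ≤ i.val + 1 then
    ((Equiv.Perm.sign κ : ℤ) : R) *
      (List.ofFn (fun i : Fin n => h (i.val + 1 - (κ i).val + if (κ i).val = 0 then k else 0))).prod
  else 0

/-- the determinant -/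
def EE (n k : ℕ) : R := ∑ κ : Equiv.Perm (Fin n), term h n k κ

lemma term_zero (n k : ℕ) (e : Equiv.Perm (Fin n)) :
    term h (n + 1) k (Equiv.Perm.decomposeFin.symm (0, e)) = h (k + 1) * term h n 0 e := by
  have h0 : (Equiv.Perm.decomposeFin.symm ((0 : Fin (n + 1)), e)) 0 = 0 := Equiv.Perm.decomposeFin_symm_apply_zero _ _
  have h1 : ∀ x : Fin n, (Equiv.Perm.decomposeFin.symm ((0 : Fin (n + 1)), e)) x.succ = (e x).succ := by
    intro x
    rw [Equiv.Perm.decomposeFin_symm_apply_succ]
    simp
  unfold term
  by_cases hc : ∀ i, (e i).val ≤ i.val + 1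
  · rw [if_pos hc, if_pos]
    · rw [List.ofFn_succ, List.prod_cons, Equiv.Perm.decomposeFin.symm_sign, if_pos rfl, one_mul, h0]
      have h2 : (fun i : Fin n => h ((i.succ).val + 1 - ((Equiv.Perm.decomposeFin.symm ((0 : Fin (n + 1)), e)) i.succ).val +
          if ((Equiv.Perm.decomposeFin.symm ((0 : Fin (n + 1)), e)) i.succ).val = 0 then k else 0)) =
          (fun i : Fin n => h (i.val + 1 - (e i).val + if (e i).val = 0 then 0 else 0)) := by
        funext i
        rw [h1]
        simp only [Fin.val_succ, Nat.add_sub_add_right, ite_self, add_zero]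
        rw [if_neg (Nat.succ_ne_zero _), add_zero]
      rw [h2]
      simp only [Fin.val_zero, if_true, zero_add, Nat.sub_zero]
      rw [← mul_assoc, (Int.cast_commute _ _).eq, mul_assoc, add_comm 1 k]
    · intro i
      refine Fin.cases ?_ (fun x => ?_) i
      · rw [h0]; simp
      · rw [h1]; simp only [Fin.val_succ]; have := hc x; omega
  · rw [if_neg hc, if_neg, mul_zero]
    intro hall
    apply hc
    intro x
    have := hall x.succ
    rw [h1] at this
    simp only [Fin.val_succ] at this
    omega

lemma term_one (n k : ℕ) (e : Equiv.Perm (Fin (n + 1))) :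
    term h (n + 2) k (Equiv.Perm.decomposeFin.symm (1, e)) = - (h 0 * term h (n + 1) (k + 1) e) := by
  have h0 : (Equiv.Perm.decomposeFin.symm ((1 : Fin (n + 2)), e)) 0 = 1 := Equiv.Perm.decomposeFin_symm_apply_zero _ _
  have h1 : ∀ x : Fin (n + 1), (Equiv.Perm.decomposeFin.symm ((1 : Fin (n + 2)), e)) x.succ =
      if (e x).val = 0 then 0 else (e x).succ := by
    intro x
    rw [Equiv.Perm.decomposeFin_symm_apply_succ]
    by_cases hx : (e x).val = 0
    · rw [if_pos hx]
      have : (e x).succ = 1 := by
        apply Fin.ext; simp [hx]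
      rw [this, Equiv.swap_apply_right]
    · rw [if_neg hx]
      apply Equiv.swap_apply_of_ne_of_ne
      · exact Fin.succ_ne_zero _
      · intro hh
        apply hx
        have := congrArg Fin.val hh
        simpa using this
  unfold term
  by_cases hc : ∀ i, (e i).val ≤ i.val + 1
  · rw [if_pos hc, if_pos]
    · rw [List.ofFn_succ, List.prod_cons, Equiv.Perm.decomposeFin.symm_sign, if_neg (by simp), h0]
      have h2 : (fun i : Fin (n + 1) => h ((i.succ).val + 1 - ((Equiv.Perm.decomposeFin.symm ((1 : Fin (n + 2)), e)) i.succ).val +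
          if ((Equiv.Perm.decomposeFin.symm ((1 : Fin (n + 2)), e)) i.succ).val = 0 then k else 0)) =
          (fun i : Fin (n + 1) => h (i.val + 1 - (e i).val + if (e i).val = 0 then (k + 1) else 0)) := by
        funext i
        rw [h1]
        by_cases hx : (e i).val = 0
        · simp only [hx, if_true, Fin.val_succ, Fin.val_zero, Nat.sub_zero]
          congr 1; omega
        · simp only [hx, if_false, Fin.val_succ, Nat.succ_ne_zero, Nat.add_sub_add_right]
      rw [h2]
      have e1 : (0 : Fin (n + 2)).val + 1 - (1 : Fin (n + 2)).val + (if (1 : Fin (n + 2)).val = 0 then k else 0) = 0 := by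
        simp
      rw [e1]
      push_cast
      rw [neg_mul, one_mul, neg_mul, ← mul_assoc, ← mul_assoc, (Int.cast_commute _ _).eq]
    · intro i
      refine Fin.cases ?_ (fun x => ?_) i
      · rw [h0]; simp
      · rw [h1]
        have := hc x
        split_ifs
        · simp
        · simp only [Fin.val_succ]; omega
  · rw [if_neg hc, if_neg, mul_zero, neg_zero]
    intro hall
    apply hc
    intro x
    have := hall x.succ
    rw [h1] at this
    by_cases hx : (e x).val = 0
    · omega
    · rw [if_neg hx] at this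
      simp only [Fin.val_succ] at this
      omega

lemma term_ge (n k : ℕ) (p : Fin (n + 1)) (hp : 2 ≤ p.val) (e : Equiv.Perm (Fin n)) :
    term h (n + 1) k (Equiv.Perm.decomposeFin.symm (p, e)) = 0 := by
  unfold term
  rw [if_neg]
  intro hall
  have := hall 0
  rw [Equiv.Perm.decomposeFin_symm_apply_zero] at this
  simp only [Fin.val_zero] at this
  omega

lemma EE_one (k : ℕ) : EE h 1 k = h (k + 1) := by
  unfold EE term
  simp [Fin.ext_iff, add_comm]

lemma EE_zero (k : ℕ) : EE h 0 k = 1 := by
  unfold EE term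
  simp

lemma EE_succ (n k : ℕ) : EE h (n + 2) k = h (k + 1) * EE h (n + 1) 0 - h 0 * EE h (n + 1) (k + 1) := by
  unfold EE
  rw [← (Equiv.Perm.decomposeFin (n := n + 1)).symm.sum_comp, Fintype.sum_prod_type, Fin.sum_univ_succ, Fin.sum_univ_succ]
  have h1 : ∑ i : Fin n, ∑ e : Equiv.Perm (Fin (n + 1)), term h (n + 2) k (Equiv.Perm.decomposeFin.symm (i.succ.succ, e)) = 0 := by
    refine Finset.sum_eq_zero fun i _ => Finset.sum_eq_zero fun e _ => ?_
    apply term_ge
    simp
  rw [h1, add_zero]
  have h2 : (Fin.succ 0 : Fin (n + 2)) = 1 := rfl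
  rw [h2]
  simp only [term_zero, term_one, Finset.sum_neg_distrib, ← Finset.mul_sum]
  rw [sub_eq_add_neg]

/-- closed form of the recursion -/
theorem EE_formula (h0 : h 0 = 1) (n : ℕ) : ∀ k, EE h (n + 1) k =
    ∑ j ∈ Finset.range (n + 1), (-1) ^ j * (h (k + j + 1) * EE h (n - j) 0) := by
  induction n with
  | zero =>
    intro k
    simp [EE_one, EE_zero]
  | succ n ih =>
    intro k
    rw [EE_succ, h0, one_mul, ih (k + 1)]
    conv_rhs => rw [Finset.sum_range_succ']
    simp only [pow_zero, one_mul, add_zero, Nat.sub_zero]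
    rw [sub_eq_add_neg, ← Finset.sum_neg_distrib, add_comm]
    congr 1
    refine Finset.sum_congr rfl fun j _ => ?_
    have e1 : k + 1 + j + 1 = k + (j + 1) + 1 := by ring
    have e2 : n + 1 - (j + 1) = n - j := by omega
    rw [e1, e2, pow_succ]
    simp

end Cfsg.Agent.H59.Hess
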