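import Mathlib

/-!
Möbius functions of finite bounded posets relative to the top element, Weisner's theorem.
-/

set_option autoImplicit false
set_option linter.unusedSectionVars false

namespace Cfsg.Agent.H59.Mob

attribute [local instance 10] Fintype.ofFinite

open Classical in
/-- `m U = μ(U, ⊤)` -/
def IsMob {X : Type*} [PartialOrder X] [OrderTop X] [Finite X] (m : X → ℂ) : Prop :=
  m ⊤ = 1 ∧ ∀ U : X, U ≠ ⊤ → ∑ W : X, (if U ≤ W then m W else 0) = 0

variable {X Y : Type*} [PartialOrder X] [OrderTop X] [Finite X] [PartialOrder Y] [OrderTop Y] [Finite Y]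

lemma IsMob.comp {m : Y → ℂ} (hm : IsMob m) (e : X ≃o Y) : IsMob (fun x => m (e x)) := by
  classical
  refine ⟨?_, fun U hU => ?_⟩
  · change m (e ⊤) = 1
    rw [e.map_top]; exact hm.1
  · have h1 := hm.2 (e U) (by
      intro h
      apply hU
      rw [← e.map_top] at h
      exact e.injective h)
    rw [← e.toEquiv.sum_comp] at h1
    refine Eq.trans ?_ h1
    refine Finset.sum_congr rfl fun W _ => ?_
    have : (e U ≤ e.toEquiv W) ↔ U ≤ W := e.le_iff_le
    by_cases h : U ≤ W
    · rw [if_pos h, if_pos (this.2 h)]; rfl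
    · rw [if_neg h, if_neg (fun h' => h (this.1 h'))]

instance iciTop (U : X) : OrderTop (Set.Ici U) where
  top := ⟨⊤, le_top⟩
  le_top x := by
    rw [← Subtype.coe_le_coe]; exact le_top

lemma IsMob.ici {m : X → ℂ} (hm : IsMob m) (U : X) : IsMob (X := Set.Ici U) (fun x => m x.1) := by
  classical
  refine ⟨hm.1, fun V hV => ?_⟩
  have h1 := hm.2 V.1 (fun h => hV (Subtype.ext h))
  refine Eq.trans ?_ h1
  symm
  rw [← Fintype.sum_subtype_add_sum_subtype (fun W : X => U ≤ W) (fun W : X => if V.1 ≤ W then m W else 0)]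
  have h2 : ∑ i : {W // ¬ U ≤ W}, (if V.1 ≤ i.1 then m i.1 else 0) = 0 := by
    refine Finset.sum_eq_zero fun W _ => ?_
    rw [if_neg]
    intro h
    exact W.2 (le_trans V.2 h)
  rw [h2, add_zero]
  exact @Fintype.sum_equiv _ _ _ _ (_) _ (Equiv.refl _) _ _ (fun _ => rfl)

/-- Weisner's theorem -/
theorem weisner {L : Type*} [Lattice L] [BoundedOrder L] [Finite L] {m : L → ℂ} (hm : IsMob m) {W : L} (hW : W ≠ ⊤) :
    ∀ A : L, A ≤ W → (letI := Classical.decEq L; ∑ U : L, (if U ⊓ W = A then m U else 0)) = 0 := by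
  classical
  intro A
  induction A using WellFoundedGT.induction with
  | ind A ih =>
    intro hA
    have hAt : A ≠ ⊤ := fun h => hW (top_le_iff.1 (h ▸ hA))
    -- sum over all A' in [A, W]
    have h1 : ∑ A' : L, (if A ≤ A' ∧ A' ≤ W then ∑ U : L, (if U ⊓ W = A' then m U else 0) else 0) = 0 := by
      have h2 : ∀ A' : L, (if A ≤ A' ∧ A' ≤ W then ∑ U : L, (if U ⊓ W = A' then m U else 0) else 0) =
          ∑ U : L, (if A ≤ A' ∧ A' ≤ W ∧ U ⊓ W = A' then m U else 0) := by
        intro A'
        by_cases h : A ≤ A' ∧ A' ≤ W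
        · rw [if_pos h]
          refine Finset.sum_congr rfl fun U _ => ?_
          by_cases h' : U ⊓ W = A'
          · rw [if_pos h', if_pos ⟨h.1, h.2, h'⟩]
          · rw [if_neg h', if_neg (fun h'' => h' h''.2.2)]
        · rw [if_neg h]
          symm
          refine Finset.sum_eq_zero fun U _ => ?_
          rw [if_neg (fun h'' => h ⟨h''.1, h''.2.1⟩)]
      rw [Finset.sum_congr rfl (fun A' _ => h2 A'), Finset.sum_comm]
      refine Eq.trans ?_ (hm.2 A hAt)
      refine Finset.sum_congr rfl fun U _ => ?_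
      rw [Finset.sum_eq_single (U ⊓ W)]
      · by_cases h : A ≤ U
        · rw [if_pos h, if_pos ⟨le_inf h hA, inf_le_right, rfl⟩]
        · rw [if_neg h, if_neg (fun h' => h (h'.1.trans inf_le_left))]
      · intro A' _ hne
        rw [if_neg (fun h' => hne h'.2.2.symm)]
      · intro h; exact absurd (Finset.mem_univ _) h
    rw [Finset.sum_eq_single A] at h1
    · rw [if_pos ⟨le_rfl, hA⟩] at h1
      convert h1
    · intro A' _ hne
      by_cases h : A ≤ A' ∧ A' ≤ W
      · rw [if_pos h]
        have := ih A' (lt_of_le_of_ne h.1 (Ne.symm hne)) h.2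
        convert this
      · rw [if_neg h]
    · intro h; exact absurd (Finset.mem_univ _) h

end Cfsg.Agent.H59.Mob
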