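import Mathlib
import Cfsg.Agent.H72.SylowCount
import Cfsg.Agent.H63.PG
import Cfsg.Agent.BG.SigmaBasic
import Cfsg.Agent.H64.Prim

set_option autoImplicit false
set_option linter.style.haveILetI false

/-!
No finite group has exactly 15 Sylow 7-subgroups.
-/

namespace Cfsg.Agent.H59.N715

open Subgroup MulAction
open scoped Pointwise commutatorElement

variable {G : Type*} [Group G] [Finite G]

instance fact7 : Fact (Nat.Prime 7) := ⟨by norm_num⟩

/-- the orbit of `Q ≠ P` under `P`. -/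
theorem orbit_ncard (h15 : Nat.card (Sylow 7 G) = 15) {P Q : Sylow 7 G} (hPQ : Q ≠ P) :
    (orbit (P : Subgroup G) Q).ncard = 7 ∧ P ∉ orbit (P : Subgroup G) Q := by
  have hP : P ∉ orbit (P : Subgroup G) Q := by
    rintro ⟨x, hx⟩
    apply hPQ
    have h1 : Q = (x⁻¹ : (P : Subgroup G)) • P := by
      have := congrArg (fun R : Sylow 7 G => (x⁻¹ : (P : Subgroup G)) • R) hx
      simpa using this
    rw [h1]
    exact Sylow.smul_eq_iff_mem_normalizer.2 (le_normalizer (x⁻¹ : (P : Subgroup G)).2)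
  refine ⟨?_, hP⟩
  have h1 : (orbit (P : Subgroup G) Q).ncard = (stabilizer (P : Subgroup G) Q).index :=
    (MulAction.index_stabilizer _ _).symm
  obtain ⟨n, hn⟩ := P.isPGroup'.index (stabilizer (P : Subgroup G) Q)
  have h2 : (orbit (P : Subgroup G) Q).ncard ≤ 14 := by
    have h3 : (orbit (P : Subgroup G) Q).ncard < (Set.univ : Set (Sylow 7 G)).ncard := by
      apply Set.ncard_lt_ncard _ (Set.toFinite _)
      refine ⟨Set.subset_univ _, fun h => hP (h (Set.mem_univ P))⟩
    rw [Set.ncard_univ, h15] at h3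
    omega
  have h3 : n ≠ 0 := by
    rintro rfl
    rw [pow_zero, Subgroup.index_eq_one] at hn
    apply hPQ
    have h4 : (P : Subgroup G) ≤ Q := by
      rw [← P.isPGroup'.sylow_mem_fixedPoints_iff]
      intro x
      have : x ∈ stabilizer (P : Subgroup G) Q := by rw [hn]; trivial
      exact this
    exact (Sylow.ext (P.is_maximal' Q.isPGroup' h4))
  rw [h1, hn] at h2 ⊢
  rcases n with _ | _ | n
  · exact absurd rfl h3
  · norm_num
  · exfalso
    have : 7 ^ 2 ≤ 7 ^ (n + 1 + 1) := Nat.pow_le_pow_right (by norm_num) (by omega)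
    omega

/-- `|P : P ∩ Q| = 7`. -/
theorem relIndex_inf (h15 : Nat.card (Sylow 7 G) = 15) {P Q : Sylow 7 G} (hPQ : Q ≠ P) :
    ((P : Subgroup G) ⊓ Q).relIndex P = 7 := by
  have h1 := (orbit_ncard h15 hPQ).1
  rw [← MulAction.index_stabilizer] at h1
  refine Eq.trans ?_ h1
  rw [Subgroup.relIndex]
  congr 1
  ext x
  rw [mem_subgroupOf, mem_stabilizer_iff]
  constructor
  · intro hx
    exact Sylow.smul_eq_iff_mem_normalizer.2 (le_normalizer hx.2)
  · intro hx
    have h2 : (x : G) ∈ normalizer ((Q : Subgroup G) : Set G) := Sylow.smul_eq_iff_mem_normalizer.1 hx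
    have h3 := P.isPGroup'.inf_normalizer_sylow Q
    rw [← h3]
    exact ⟨x.2, h2⟩

theorem le_normalizer_inf (h15 : Nat.card (Sylow 7 G) = 15) {P Q : Sylow 7 G} (hPQ : Q ≠ P) :
    (P : Subgroup G) ≤ normalizer (((P : Subgroup G) ⊓ Q : Subgroup G) : Set G) := by
  have h1 : (((P : Subgroup G) ⊓ Q).subgroupOf P).Normal :=
    H63.normal_of_index_prime P.isPGroup' (relIndex_inf h15 hPQ)
  exact (Subgroup.normal_subgroupOf_iff_le_normalizer inf_le_left).1 h1

theorem coe_smul' {P : Sylow 7 G} (x : (P : Subgroup G)) (Q : Sylow 7 G) :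
    ((x • Q : Sylow 7 G) : Subgroup G) = MulAut.conj (x : G) • (Q : Subgroup G) := rfl

theorem inf_smul (h15 : Nat.card (Sylow 7 G) = 15) {P Q : Sylow 7 G} (hPQ : Q ≠ P) (x : (P : Subgroup G)) :
    (P : Subgroup G) ⊓ (x • Q : Sylow 7 G) = (P : Subgroup G) ⊓ Q := by
  have h1 : MulAut.conj (x : G) • (P : Subgroup G) = P := BG.P09.conj_smul_self x.2
  have h2 : (P : Subgroup G) ⊓ (MulAut.conj (x : G) • (Q : Subgroup G)) =
      MulAut.conj (x : G) • ((P : Subgroup G) ⊓ Q) := by
    rw [BG.P09.smul_inf, h1]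
  rw [coe_smul', h2]
  exact BG.P09.conj_smul_of_mem_normalizer (le_normalizer_inf h15 hPQ x.2)

theorem inf_eq_of_mem_orbit (h15 : Nat.card (Sylow 7 G) = 15) {P Q R : Sylow 7 G} (hPQ : Q ≠ P)
    (hR : R ∈ orbit (P : Subgroup G) Q) : (P : Subgroup G) ⊓ R = (P : Subgroup G) ⊓ Q := by
  obtain ⟨x, rfl⟩ := hR
  exact inf_smul h15 hPQ x

theorem exists_two (h15 : Nat.card (Sylow 7 G) = 15) (P : Sylow 7 G) :
    ∃ Q₁ Q₂ : Sylow 7 G, Q₁ ≠ P ∧ Q₂ ≠ P ∧ Q₂ ∉ orbit (P : Subgroup G) Q₁ ∧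
      ∀ Q : Sylow 7 G, Q ≠ P → Q ∈ orbit (P : Subgroup G) Q₁ ∨ Q ∈ orbit (P : Subgroup G) Q₂ := by
  have huniv : (Set.univ : Set (Sylow 7 G)).ncard = 15 := by rw [Set.ncard_univ, h15]
  obtain ⟨Q₁, hQ₁⟩ : ∃ Q₁ : Sylow 7 G, Q₁ ≠ P := by
    by_contra hcon
    push Not at hcon
    have : (Set.univ : Set (Sylow 7 G)) = {P} := by
      ext Q; simp [hcon Q]
    rw [this, Set.ncard_singleton] at huniv
    omega
  obtain ⟨h1, h2⟩ := orbit_ncard h15 hQ₁
  obtain ⟨Q₂, hQ₂, hQ₂'⟩ : ∃ Q₂ : Sylow 7 G, Q₂ ≠ P ∧ Q₂ ∉ orbit (P : Subgroup G) Q₁ := by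
    by_contra hcon
    push Not at hcon
    have : (Set.univ : Set (Sylow 7 G)) = insert P (orbit (P : Subgroup G) Q₁) := by
      ext Q
      simp only [Set.mem_univ, Set.mem_insert_iff, true_iff]
      by_cases hQ : Q = P
      · exact Or.inl hQ
      · exact Or.inr (hcon Q hQ)
    rw [this, Set.ncard_insert_of_notMem h2 (Set.toFinite _), h1] at huniv
    omega
  obtain ⟨h3, h4⟩ := orbit_ncard h15 hQ₂
  refine ⟨Q₁, Q₂, hQ₁, hQ₂, hQ₂', ?_⟩
  intro Q hQ
  have hdisj : Disjoint (orbit (P : Subgroup G) Q₁) (orbit (P : Subgroup G) Q₂) := by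
    rw [Set.disjoint_left]
    intro R hR1 hR2
    apply hQ₂'
    rw [orbit_eq_iff.2 hR1 |>.symm, orbit_eq_iff.2 hR2]
    exact mem_orbit_self Q₂
  have h5 : (insert P (orbit (P : Subgroup G) Q₁ ∪ orbit (P : Subgroup G) Q₂)).ncard = 15 := by
    rw [Set.ncard_insert_of_notMem (by rintro (h | h); exacts [h2 h, h4 h]) (Set.toFinite _),
      Set.ncard_union_eq hdisj (Set.toFinite _) (Set.toFinite _), h1, h3]
  have h6 : insert P (orbit (P : Subgroup G) Q₁ ∪ orbit (P : Subgroup G) Q₂) = Set.univ := by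
    apply Set.eq_of_subset_of_ncard_le (Set.subset_univ _) _ (Set.toFinite _)
    rw [h5, huniv]
  have h7 : Q ∈ insert P (orbit (P : Subgroup G) Q₁ ∪ orbit (P : Subgroup G) Q₂) := by
    rw [h6]; trivial
  exact h7.resolve_left hQ

/-- structure of `P` when no normal 7-subgroup. -/
theorem inf_inf_eq_bot (h15 : Nat.card (Sylow 7 G) = 15)
    (hker : ∀ g : G, (∀ Q : Sylow 7 G, g • Q = Q) → g = 1) {P Q₁ Q₂ : Sylow 7 G}
    (h1 : Q₁ ≠ P) (h2 : Q₂ ≠ P)
    (h : ∀ Q : Sylow 7 G, Q ≠ P → Q ∈ orbit (P : Subgroup G) Q₁ ∨ Q ∈ orbit (P : Subgroup G) Q₂) :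
    (P : Subgroup G) ⊓ Q₁ ⊓ ((P : Subgroup G) ⊓ Q₂) = ⊥ := by
  rw [eq_bot_iff]
  rintro x ⟨hx1, hx2⟩
  rw [Subgroup.mem_bot]
  apply hker
  intro Q
  rw [Sylow.smul_eq_iff_mem_normalizer]
  apply le_normalizer
  by_cases hQ : Q = P
  · rw [hQ]; exact hx1.1
  rcases h Q hQ with h3 | h3
  · have h4 := inf_eq_of_mem_orbit h15 h1 h3
    have h5 : x ∈ (P : Subgroup G) ⊓ Q := by rw [h4]; exact hx1
    exact h5.2
  · have h4 := inf_eq_of_mem_orbit h15 h2 h3
    have h5 : x ∈ (P : Subgroup G) ⊓ Q := by rw [h4]; exact hx2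
    exact h5.2

theorem comm_mem_of_index {H : Type*} [Group H] (K : Subgroup H) [K.Normal] (hK : K.index = 7) (x y : H) :
    ⁅x, y⁆ ∈ K := by
  haveI : IsCyclic (H ⧸ K) := isCyclic_of_prime_card (p := 7) hK
  rw [← QuotientGroup.eq_one_iff]
  have h1 : ((⁅x, y⁆ : H) : H ⧸ K) = ⁅(x : H ⧸ K), (y : H ⧸ K)⁆ := rfl
  rw [h1, commutatorElement_eq_one_iff_mul_comm]
  exact IsCyclic.isMulCommutative.is_comm.comm _ _

/-- the Sylow subgroups are abelian. -/
theorem sylow_comm (h15 : Nat.card (Sylow 7 G) = 15)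
    (hker : ∀ g : G, (∀ Q : Sylow 7 G, g • Q = Q) → g = 1) (P : Sylow 7 G) :
    ∀ x ∈ (P : Subgroup G), ∀ y ∈ (P : Subgroup G), x * y = y * x := by
  obtain ⟨Q₁, Q₂, h1, h2, -, h⟩ := exists_two h15 P
  have key : ∀ Q : Sylow 7 G, Q ≠ P → ∀ x ∈ (P : Subgroup G), ∀ y ∈ (P : Subgroup G),
      ⁅x, y⁆ ∈ (P : Subgroup G) ⊓ Q := by
    intro Q hQ x hx y hy
    have h3 : (((P : Subgroup G) ⊓ Q).subgroupOf P).Normal :=
      H63.normal_of_index_prime P.isPGroup' (relIndex_inf h15 hQ)
    exact comm_mem_of_index (((P : Subgroup G) ⊓ Q).subgroupOf P) (relIndex_inf h15 hQ)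
      (⟨x, hx⟩ : (P : Subgroup G)) ⟨y, hy⟩
  intro x hx y hy
  have h4 : ⁅x, y⁆ ∈ (P : Subgroup G) ⊓ Q₁ ⊓ ((P : Subgroup G) ⊓ Q₂) := ⟨key Q₁ h1 x hx y hy, key Q₂ h2 x hx y hy⟩
  rw [inf_inf_eq_bot h15 hker h1 h2 h, Subgroup.mem_bot] at h4
  exact commutatorElement_eq_one_iff_mul_comm.1 h4

theorem caseB (h15 : Nat.card (Sylow 7 G) = 15)
    (hker : ∀ g : G, (∀ Q : Sylow 7 G, g • Q = Q) → g = 1) {P Q₁ Q₂ : Sylow 7 G}
    (h1 : Q₁ ≠ P) (h2 : Q₂ ≠ P)
    (h : ∀ Q : Sylow 7 G, Q ≠ P → Q ∈ orbit (P : Subgroup G) Q₁ ∨ Q ∈ orbit (P : Subgroup G) Q₂)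
    (hD : (P : Subgroup G) ⊓ Q₁ ≠ ⊥) : False := by
  have hdis := inf_inf_eq_bot h15 hker h1 h2 h
  set D : Subgroup G := (P : Subgroup G) ⊓ Q₁ with hDdef
  set NP := normalizer ((P : Subgroup G) : Set G) with hNP
  set ND := normalizer (D : Set G) with hND
  have hDp : IsPGroup 7 D := P.isPGroup'.to_le inf_le_left
  have hcont : ∀ R : Sylow 7 G, D ≤ R ↔ R ∈ insert P (orbit (P : Subgroup G) Q₁) := by
    intro R
    constructor
    · intro hDR
      by_cases hR : R = P
      · exact Or.inl hR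
      right
      rcases h R hR with h3 | h3
      · exact h3
      · exfalso
        apply hD
        rw [eq_bot_iff, ← hdis]
        refine le_inf le_rfl ?_
        rw [← inf_eq_of_mem_orbit h15 h2 h3]
        exact le_inf inf_le_left hDR
    · rintro (h3 | h3)
      · rw [h3]; exact inf_le_left
      · rw [hDdef, ← inf_eq_of_mem_orbit h15 h1 h3]; exact inf_le_right
  have hND' : ∀ R : Sylow 7 G, (R : Subgroup G) ≤ ND ↔ D ≤ R := by
    intro R
    constructor
    · intro hR
      have h3 : IsPGroup 7 ↥((R : Subgroup G) ⊔ D) := by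
        rw [sup_comm]; exact hDp.to_sup_of_normal_left' R.isPGroup' hR
      have h4 := R.is_maximal' h3 le_sup_left
      rw [← h4]; exact le_sup_right
    · intro hDR
      refine le_trans ?_ (Subgroup.centralizer_le_normalizer _)
      intro x hx
      rw [mem_centralizer_iff]
      intro y hy
      exact (sylow_comm h15 hker R y (hDR hy) x hx)
  have hPND : (P : Subgroup G) ≤ ND := (hND' P).2 inf_le_left
  have h8 : Nat.card (Sylow 7 ND) = 8 := by
    rw [← H72.card_sylow_le P hPND]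
    have h3 : {Q : Sylow 7 G | (Q : Subgroup G) ≤ ND} = insert P (orbit (P : Subgroup G) Q₁) := by
      ext R
      rw [Set.mem_setOf_eq, hND', hcont]
    have h4 : Nat.card {Q : Sylow 7 G // (Q : Subgroup G) ≤ ND} = ({Q : Sylow 7 G | (Q : Subgroup G) ≤ ND}).ncard := rfl
    obtain ⟨h5, h6⟩ := orbit_ncard h15 h1
    rw [h4, h3, Set.ncard_insert_of_notMem h6 (Set.toFinite _), h5]
  have h9 : NP.relIndex ND = 8 := by
    rw [← h8, Sylow.card_eq_index_normalizer (P.subtype hPND), Subgroup.relIndex]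
    exact congrArg Subgroup.index (Subgroup.subgroupOf_normalizer_eq hPND)
  have h10 : NP.index = 15 := (Sylow.card_eq_index_normalizer P).symm.trans h15
  -- the action of `N(P)` on `{P ∩ Q₁, P ∩ Q₂}`
  have hact : ∀ n ∈ NP, MulAut.conj n • D = D ∨ MulAut.conj n • D = (P : Subgroup G) ⊓ Q₂ := by
    intro n hn
    have h3 : n • P = P := Sylow.smul_eq_iff_mem_normalizer.2 hn
    have h4 : n • Q₁ ≠ P := by
      intro h4
      apply h1
      rw [← h3] at h4
      exact smul_left_cancel n h4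
    have h5 : MulAut.conj n • D = (P : Subgroup G) ⊓ (n • Q₁ : Sylow 7 G) := by
      rw [hDdef, BG.P09.smul_inf, BG.P09.conj_smul_of_mem_normalizer hn]
      rfl
    rw [h5]
    rcases h _ h4 with h6 | h6
    · left; exact inf_eq_of_mem_orbit h15 h1 h6
    · right; exact inf_eq_of_mem_orbit h15 h2 h6
  have hm : ND.relIndex NP = 1 ∨ ND.relIndex NP = 2 := by
    by_cases hle : NP ≤ ND
    · left; exact Subgroup.relIndex_eq_one.2 hle
    right
    obtain ⟨n₀, hn₀, hn₀D⟩ := SetLike.not_le_iff_exists.1 hle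
    rw [Subgroup.relIndex, Subgroup.index_eq_two_iff_exists_notMem_and']
    refine ⟨⟨n₀, hn₀⟩⁻¹, ?_, ?_⟩
    · rw [inv_mem_iff]; exact hn₀D
    · rintro ⟨b, hb⟩
      by_cases hbD : b ∈ ND
      · right; exact hbD
      left
      have h3 : ∀ n ∈ NP, n ∉ ND → MulAut.conj n • D = (P : Subgroup G) ⊓ Q₂ := by
        intro n hn hnD
        refine (hact n hn).resolve_left (fun h4 => hnD ?_)
        rw [hND, ← BG.P09.conj_smul_eq_iff]; exact h4
      show n₀⁻¹ * b ∈ ND
      rw [hND, ← BG.P09.conj_smul_eq_iff, map_mul, mul_smul, h3 b hb hbD, ← h3 n₀ hn₀ hn₀D,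
        BG.P09.inv_smul_smul']
  have h11 : NP.index * ND.relIndex NP = ND.index * NP.relIndex ND := by
    have h3 := Subgroup.relIndex_mul_index (inf_le_left : NP ⊓ ND ≤ NP)
    have h4 := Subgroup.relIndex_mul_index (inf_le_right : NP ⊓ ND ≤ ND)
    rw [Subgroup.inf_relIndex_left] at h3
    rw [Subgroup.inf_relIndex_right] at h4
    rw [mul_comm NP.index, h3, ← h4, mul_comm]
  rw [h9, h10] at h11
  rcases hm with hm | hm <;> rw [hm] at h11 <;> omega

theorem caseA_fix (h15 : Nat.card (Sylow 7 G) = 15)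
    (hker : ∀ g : G, (∀ Q : Sylow 7 G, g • Q = Q) → g = 1) {P Q₁ Q₂ : Sylow 7 G}
    (h1 : Q₁ ≠ P) (hP2 : Q₂ ≠ P) (hQ₂ : Q₂ ∉ orbit (P : Subgroup G) Q₁)
    (h : ∀ Q : Sylow 7 G, Q ≠ P → Q ∈ orbit (P : Subgroup G) Q₁ ∨ Q ∈ orbit (P : Subgroup G) Q₂)
    (hD : (P : Subgroup G) ⊓ Q₁ = ⊥) {c : G} (hc : c ∈ centralizer ((P : Subgroup G) : Set G))
    (hcQ : c • Q₁ = Q₁) : c = 1 := by
  have hP7 : Nat.card (P : Subgroup G) = 7 := by
    have := relIndex_inf h15 h1
    rw [hD, Subgroup.relIndex_bot_left] at this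
    exact this
  have hcomm : ∀ x : (P : Subgroup G), c * x = x * c := fun x => (mem_centralizer_iff.1 hc x x.2).symm
  have hfix : ∀ {d : G} (_ : ∀ x : (P : Subgroup G), d * x = x * d) {Q : Sylow 7 G} (_ : d • Q = Q),
      ∀ R ∈ orbit (P : Subgroup G) Q, d • R = R := by
    rintro d hd Q hQ _ ⟨x, rfl⟩
    show d • ((x : G) • Q) = (x : G) • Q
    rw [smul_smul, hd x, ← smul_smul, hQ]
  have hcP : c • P = P := Sylow.smul_eq_iff_mem_normalizer.2 (Subgroup.centralizer_le_normalizer _ hc)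
  obtain ⟨y, hy⟩ : c • Q₂ ∈ orbit (P : Subgroup G) Q₂ := by
    have h3 : c • Q₂ ≠ P := by
      intro h3
      rw [← hcP] at h3
      exact hP2 (smul_left_cancel c h3)
    refine (h _ h3).resolve_left (fun h4 => hQ₂ ?_)
    have h5 := hfix hcomm hcQ _ h4
    have h6 := smul_left_cancel c h5
    rwa [h6] at h4
  have hy' : (y : G) • Q₂ = c • Q₂ := hy
  set d : G := (y : G)⁻¹ * c with hd
  have hdQ : d • Q₂ = Q₂ := by
    rw [hd, ← smul_smul, ← hy', smul_smul, inv_mul_cancel, one_smul]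
  have hdc : ∀ x : (P : Subgroup G), d * x = x * d := by
    intro x
    have h3 := sylow_comm h15 hker P (y : G)⁻¹ (inv_mem y.2) x x.2
    rw [hd, mul_assoc, hcomm x, ← mul_assoc, h3, mul_assoc]
  have hc7 : c ^ 7 = 1 := by
    apply hker
    have hpow : ∀ (e : G) (Q : Sylow 7 G), e • Q = Q → e ^ 7 • Q = Q := by
      intro e Q he
      have : e ^ 7 ∈ stabilizer G Q := Subgroup.pow_mem _ (mem_stabilizer_iff.2 he) 7
      exact this
    intro Q
    by_cases hQ : Q = P
    · rw [hQ]; exact hpow c P hcP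
    rcases h Q hQ with h3 | h3
    · exact hpow c Q (hfix hcomm hcQ Q h3)
    · have h4 : c ^ 7 = d ^ 7 := by
        have h5 : c = (y : G) * d := by rw [hd]; group
        have h6 : Commute (y : G) d := (hdc y).symm
        rw [h5, h6.mul_pow]
        have h7 : y ^ 7 = 1 := by
          have := pow_card_eq_one' (x := y)
          rwa [hP7] at this
        have h8 : (y : G) ^ 7 = 1 := by
          have := congrArg Subtype.val h7
          simpa using this
        rw [h8, one_mul]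
      rw [h4]
      exact hpow d Q (hfix hdc hdQ Q h3)
  have hcP' : c ∈ (P : Subgroup G) := by
    have h3 : IsPGroup 7 (zpowers c) := by
      rw [IsPGroup.iff_card]
      have h4 : Nat.card (zpowers c) ∣ 7 := by rw [Nat.card_zpowers]; exact orderOf_dvd_of_pow_eq_one hc7
      rcases (Nat.dvd_prime (by norm_num)).1 h4 with h5 | h5
      · exact ⟨0, by rw [h5]; norm_num⟩
      · exact ⟨1, by rw [h5]; norm_num⟩
    have h4 : zpowers c ≤ normalizer ((P : Subgroup G) : Set G) :=
      (zpowers_le).2 (Subgroup.centralizer_le_normalizer _ hc)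
    have h5 := P.is_maximal' (P.isPGroup'.to_sup_of_normal_left' h3 h4) le_sup_left
    rw [← h5]
    exact (le_sup_right : zpowers c ≤ (P : Subgroup G) ⊔ zpowers c) (mem_zpowers c)
  have h3 : c ∈ (P : Subgroup G) ⊓ Q₁ := by
    rw [← P.isPGroup'.inf_normalizer_sylow Q₁]
    exact ⟨hcP', Sylow.smul_eq_iff_mem_normalizer.1 hcQ⟩
  rw [hD, Subgroup.mem_bot] at h3
  exact h3

/-- `C_G(P)` acts semiregularly on the other Sylow subgroups. -/
theorem caseA_fix' (h15 : Nat.card (Sylow 7 G) = 15)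
    (hker : ∀ g : G, (∀ Q : Sylow 7 G, g • Q = Q) → g = 1) {P : Sylow 7 G}
    (hP7 : Nat.card (P : Subgroup G) = 7) {c : G} (hc : c ∈ centralizer ((P : Subgroup G) : Set G))
    {Q : Sylow 7 G} (hQ : Q ≠ P) (hcQ : c • Q = Q) : c = 1 := by
  obtain ⟨Q₁, Q₂, h1, h2, h12, h⟩ := exists_two h15 P
  have hD : ∀ R : Sylow 7 G, R ≠ P → (P : Subgroup G) ⊓ R = ⊥ := by
    intro R hR
    have h3 := relIndex_inf h15 hR
    have h4 := H64.card_mul_relIndex (inf_le_left : (P : Subgroup G) ⊓ R ≤ P)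
    rw [h3, hP7] at h4
    exact Subgroup.card_eq_one.1 (by omega)
  have hcomm : ∀ x : (P : Subgroup G), c * x = x * c := fun x => (mem_centralizer_iff.1 hc x x.2).symm
  have key : ∀ Q' : Sylow 7 G, Q ∈ orbit (P : Subgroup G) Q' → c • Q' = Q' := by
    rintro Q' ⟨x, hx⟩
    have hx' : (x : G) • Q' = Q := hx
    rw [← hx', smul_smul, hcomm x, ← smul_smul] at hcQ
    exact smul_left_cancel _ hcQ
  rcases h Q hQ with h3 | h3
  · exact caseA_fix h15 hker h1 h2 h12 h (hD Q₁ h1) hc (key Q₁ h3)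
  · refine caseA_fix h15 hker h2 h1 ?_ (fun R hR => (h R hR).symm) (hD Q₂ h2) hc (key Q₂ h3)
    intro h4
    apply h12
    rw [orbit_eq_iff.2 h4]
    exact mem_orbit_self Q₂

theorem false_of_complement (hnorm : ∀ H : Subgroup G, H.Normal → ¬ 7 ∣ H.index → H = ⊤) {q : ℕ}
    [hq : Fact q.Prime] (hq7 : q ≠ 7) (S : Sylow q G) (hS : (S : Subgroup G) ≠ ⊥)
    (h : normalizer ((S : Subgroup G) : Set G) ≤ centralizer ((S : Subgroup G) : Set G)) : False := by
  have h1 := MonoidHom.ker_transferSylow_isComplement' S h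
  have h2 := h1.symm.index_eq_card
  have h3 := hnorm (MonoidHom.transferSylow S h).ker inferInstance (by
    rw [h2]
    intro h7
    obtain ⟨n, hn⟩ := IsPGroup.iff_card.1 S.isPGroup'
    rw [hn] at h7
    exact hq7 ((Nat.prime_dvd_prime_iff_eq (by norm_num) hq.out).1 (Nat.Prime.dvd_of_dvd_pow (by norm_num) h7)).symm)
  apply hS
  rw [h3, Subgroup.index_top] at h2
  exact Subgroup.card_eq_one.1 h2.symm

theorem relIndex_cent_dvd {q : ℕ} [hq : Fact q.Prime] {S : Subgroup G} (hS : Nat.card S = q) :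
    (centralizer (S : Set G)).relIndex (normalizer (S : Set G)) ∣ q - 1 := by
  have key := Subgroup.card_dvd_of_injective _ (QuotientGroup.kerLift_injective S.normalizerMonoidHom)
  rw [Subgroup.normalizerMonoidHom_ker, ← Subgroup.index, ← Subgroup.relIndex] at key
  haveI : IsCyclic S := isCyclic_of_prime_card hS
  rwa [IsCyclic.card_mulAut, hS, Nat.totient_prime hq.out] at key

theorem card_sylow_eq_prime {q : ℕ} [hq : Fact q.Prime] (h1 : q ∣ Nat.card G) (h2 : ¬ q ^ 2 ∣ Nat.card G)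
    (S : Sylow q G) : Nat.card (S : Subgroup G) = q := by
  obtain ⟨n, hn⟩ := IsPGroup.iff_card.1 S.isPGroup'
  have h3 := Subgroup.card_subgroup_dvd_card (S : Subgroup G)
  rcases n with _ | _ | n
  · exfalso
    apply S.not_dvd_index
    have h4 := (S : Subgroup G).card_mul_index
    rw [hn, pow_zero, one_mul] at h4
    rwa [h4]
  · rw [hn]; ring
  · exfalso
    apply h2
    rw [hn] at h3
    exact (pow_dvd_pow q (by omega)).trans h3

theorem false_of_prime (hnorm : ∀ H : Subgroup G, H.Normal → ¬ 7 ∣ H.index → H = ⊤) (q : ℕ)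
    [hq : Fact q.Prime] (hq7 : q ≠ 7) (h1 : q ∣ Nat.card G) (h2 : ¬ q ^ 2 ∣ Nat.card G)
    (h3 : (q - 1).Coprime (Nat.card G)) : False := by
  obtain ⟨S⟩ : Nonempty (Sylow q G) := inferInstance
  have hS := card_sylow_eq_prime h1 h2 S
  refine false_of_complement hnorm hq7 S ?_ ?_
  · intro h
    rw [h, Subgroup.card_bot] at hS
    exact hq.out.one_lt.ne hS
  · rw [← Subgroup.relIndex_eq_one]
    refine Nat.eq_one_of_dvd_coprimes h3 (relIndex_cent_dvd hS) ?_
    exact (Subgroup.relIndex_dvd_card _ _).trans (Subgroup.card_subgroup_dvd_card _)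

theorem caseA (h15 : Nat.card (Sylow 7 G) = 15)
    (hker : ∀ g : G, (∀ Q : Sylow 7 G, g • Q = Q) → g = 1)
    (hnorm : ∀ H : Subgroup G, H.Normal → ¬ 7 ∣ H.index → H = ⊤) {P : Sylow 7 G}
    (hP7 : Nat.card (P : Subgroup G) = 7) : False := by
  classical
  haveI : Fintype (Sylow 7 G) := Fintype.ofFinite _
  set C := centralizer ((P : Subgroup G) : Set G) with hC
  set N := normalizer ((P : Subgroup G) : Set G) with hN
  have hPC : (P : Subgroup G) ≤ C := by
    intro x hx
    rw [hC, mem_centralizer_iff]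
    exact fun y hy => sylow_comm h15 hker P y hy x hx
  obtain ⟨Q₁, -, h1, -, -, -⟩ := exists_two h15 P
  have hfix : ∀ c ∈ C, ∀ Q : Sylow 7 G, Q ≠ P → c • Q = Q → c = 1 := fun c hc Q hQ h =>
    caseA_fix' h15 hker hP7 hc hQ h
  have hCP : ∀ c ∈ C, c • P = P := fun c hc =>
    Sylow.smul_eq_iff_mem_normalizer.2 (Subgroup.centralizer_le_normalizer _ hc)
  -- `|C| ≤ 14`
  have hC14 : Nat.card C ≤ 14 := by
    have h3 : Nat.card C ≤ ({P}ᶜ : Set (Sylow 7 G)).ncard := by
      rw [← Nat.card_coe_set_eq]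
      refine Nat.card_le_card_of_injective (fun c : C => (⟨(c : G) • Q₁, ?_⟩ : ({P}ᶜ : Set (Sylow 7 G)))) ?_
      · rw [Set.mem_compl_iff, Set.mem_singleton_iff]
        intro h4
        apply h1
        rw [← hCP c c.2] at h4
        exact smul_left_cancel _ h4
      · intro c c' hcc
        have h4 : (c : G) • Q₁ = (c' : G) • Q₁ := congrArg Subtype.val hcc
        have h5 : ((c' : G)⁻¹ * c) • Q₁ = Q₁ := by
          rw [← smul_smul, h4, smul_smul, inv_mul_cancel, one_smul]
        have h6 := hfix _ (C.mul_mem (C.inv_mem c'.2) c.2) Q₁ h1 h5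
        exact Subtype.ext (inv_mul_eq_one.1 h6).symm
    have h4 := Set.ncard_add_ncard_compl ({P} : Set (Sylow 7 G))
    rw [Set.ncard_singleton, h15] at h4
    omega
  have h7C : 7 ∣ Nat.card C := by
    rw [← hP7]; exact Subgroup.card_dvd_of_le hPC
  have hC7 : Nat.card C = 7 := by
    obtain ⟨k, hk⟩ := h7C
    have hk0 : 0 < Nat.card C := Nat.card_pos
    have hk12 : k = 1 ∨ k = 2 := by omega
    rcases hk12 with rfl | rfl
    · exact hk
    exfalso
    obtain ⟨t, ht⟩ := exists_prime_orderOf_dvd_card' (G := C) 2 (by rw [hk]; norm_num)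
    have ht' : orderOf (t : G) = 2 := by rw [Subgroup.orderOf_coe]; exact ht
    have ht1 : (t : G) ≠ 1 := fun h => by rw [h, orderOf_one] at ht'; norm_num at ht'
    set f : G →* ℤˣ := (Equiv.Perm.sign).comp (MulAction.toPermHom G (Sylow 7 G)) with hf
    have hker' : f.ker = ⊤ := by
      apply hnorm _ inferInstance
      rw [Subgroup.index_ker]
      intro h7
      have h8 : Nat.card f.range ∣ 2 := by
        have h9 := Subgroup.card_subgroup_dvd_card f.range
        have h10 : Nat.card ℤˣ = 2 := by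
          rw [Nat.card_eq_fintype_card]; rfl
        rwa [h10] at h9
      have := h7.trans h8
      norm_num at this
    have hft : f t = 1 := by
      have : (t : G) ∈ f.ker := by rw [hker']; trivial
      exact this
    set σ := MulAction.toPermHom G (Sylow 7 G) (t : G) with hσ
    have hσa : ∀ Q : Sylow 7 G, σ Q = (t : G) • Q := fun Q => rfl
    have hσ2 : orderOf σ = 2 := by
      apply orderOf_eq_prime
      · rw [hσ, ← map_pow, ← ht', pow_orderOf_eq_one, map_one]
      · intro h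
        have : σ Q₁ = Q₁ := by rw [h]; rfl
        exact ht1 (hfix t t.2 Q₁ h1 this)
    have hsupp : σ.support = Finset.univ.erase P := by
      ext Q
      rw [Equiv.Perm.mem_support, hσa, Finset.mem_erase]
      constructor
      · intro h
        refine ⟨fun h' => h (by rw [h']; exact hCP t t.2), Finset.mem_univ _⟩
      · rintro ⟨h, -⟩ h'
        exact ht1 (hfix t t.2 Q h h')
    have hcard : σ.support.card = 14 := by
      rw [hsupp, Finset.card_erase_of_mem (Finset.mem_univ _), Finset.card_univ, ← Nat.card_eq_fintype_card, h15]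
    obtain ⟨n, hn⟩ := Equiv.Perm.cycleType_prime_order (σ := σ) (by rw [hσ2]; norm_num)
    have hsum := Equiv.Perm.sum_cycleType σ
    rw [hcard, hn, Multiset.sum_replicate, hσ2, smul_eq_mul] at hsum
    have hn6 : n = 6 := by omega
    have hsign := Equiv.Perm.sign_of_cycleType σ
    rw [hn, hn6, hσ2, Multiset.sum_replicate, Multiset.card_replicate] at hsign
    have : f t = -1 := by
      rw [hf]
      show Equiv.Perm.sign σ = -1
      rw [hsign]; rfl
    rw [hft] at this
    exact absurd this (by decide)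
  have hN15 : N.index = 15 := (Sylow.card_eq_index_normalizer P).symm.trans h15
  have he := relIndex_cent_dvd (q := 7) hP7
  have hCN : C ≤ N := Subgroup.centralizer_le_normalizer _
  have hG : Nat.card G = 105 * C.relIndex N := by
    rw [← Subgroup.card_mul_index N, hN15, ← H64.card_mul_relIndex hCN, hC7]
    ring
  have he' : C.relIndex N ∣ 6 := he
  have he1 : C.relIndex N = 1 ∨ C.relIndex N = 2 ∨ C.relIndex N = 3 ∨ C.relIndex N = 6 := by
    have h3 := Nat.le_of_dvd (by norm_num) he'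
    generalize C.relIndex N = e at he' h3
    interval_cases e <;> first | omega | (revert he'; decide)
  haveI : Fact (Nat.Prime 5) := ⟨by norm_num⟩
  haveI : Fact (Nat.Prime 2) := ⟨by norm_num⟩
  rcases he1 with h | h | h | h <;> rw [h] at hG
  · exact false_of_prime hnorm 5 (by norm_num) (by rw [hG]; norm_num) (by rw [hG]; norm_num) (by rw [hG]; norm_num)
  · exact false_of_prime hnorm 2 (by norm_num) (by rw [hG]; norm_num) (by rw [hG]; norm_num) (by rw [hG]; norm_num)
  · exact false_of_prime hnorm 5 (by norm_num) (by rw [hG]; norm_num) (by rw [hG]; norm_num) (by rw [hG]; norm_num)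
  · exact false_of_prime hnorm 2 (by norm_num) (by rw [hG]; norm_num) (by rw [hG]; norm_num) (by rw [hG]; norm_num)

/-- induction on the order. -/
theorem main (n : ℕ) : ∀ {G : Type*} [Group G] [Finite G], Nat.card G = n → Nat.card (Sylow 7 G) ≠ 15 := by
  induction n using Nat.strong_induction_on with
  | _ n ih =>
    intro G _ _ hn h15
    have hnorm : ∀ H : Subgroup G, H.Normal → ¬ 7 ∣ H.index → H = ⊤ := by
      intro H hH h7
      by_contra hne
      haveI := hH
      have h1 := H72.card_sylow_of_not_dvd_index H h7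
      refine ih (Nat.card H) ?_ rfl (h1.trans h15)
      rw [← hn]
      exact lt_of_le_of_ne (Nat.le_of_dvd Nat.card_pos (Subgroup.card_subgroup_dvd_card H))
        (fun h => hne (Subgroup.eq_top_of_card_eq H h))
    have hker : ∀ g : G, (∀ Q : Sylow 7 G, g • Q = Q) → g = 1 := by
      by_contra hcon
      push Not at hcon
      obtain ⟨g, hg, hg1⟩ := hcon
      set K := (MulAction.toPermHom G (Sylow 7 G)).ker with hK
      have hgK : g ∈ K := by
        rw [hK, MonoidHom.mem_ker]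
        ext1 Q
        exact hg Q
      obtain ⟨P⟩ : Nonempty (Sylow 7 G) := inferInstance
      have hKN : K ≤ normalizer ((P : Subgroup G) : Set G) := by
        intro x hx
        have h1 : MulAction.toPermHom G (Sylow 7 G) x = 1 := hx
        have h2 : x • P = P := congrArg (fun σ : Equiv.Perm (Sylow 7 G) => σ P) h1
        exact Sylow.smul_eq_iff_mem_normalizer.1 h2
      have h3 := H64.card_sylow_quotient P K
      rw [sup_eq_right.2 hKN] at h3
      have h4 : Nat.card (Sylow 7 (G ⧸ K)) = 15 := h3.trans ((Sylow.card_eq_index_normalizer P).symm.trans h15)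
      refine ih (Nat.card (G ⧸ K)) ?_ rfl h4
      rw [← hn]
      show K.index < Nat.card G
      have h5 := K.card_mul_index
      have h6 : 1 < Nat.card K := by
        rw [Subgroup.one_lt_card_iff_ne_bot]
        intro h; rw [h, Subgroup.mem_bot] at hgK; exact hg1 hgK
      have h7 : 0 < K.index := Nat.pos_of_ne_zero Subgroup.index_ne_zero_of_finite
      nlinarith
    obtain ⟨P⟩ : Nonempty (Sylow 7 G) := inferInstance
    obtain ⟨Q₁, Q₂, h1, h2, h12, h⟩ := exists_two h15 P
    by_cases hD : (P : Subgroup G) ⊓ Q₁ = ⊥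
    · refine caseA h15 hker hnorm (P := P) ?_
      have := relIndex_inf h15 h1
      rw [hD, Subgroup.relIndex_bot_left] at this
      exact this
    · exact caseB h15 hker h1 h2 h hD

end Cfsg.Agent.H59.N715
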