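import Cfsg.Agent.H23.ThreeGroup

/-!
# Normal elementary abelian subgroups of order p^4 (after H23.ThreeGroup; owner: helper59)
-/

set_option autoImplicit false
open Cfsg Cfsg.Agent.H23

namespace Cfsg.Agent.H59

/-- An element of `A` centralized by `e` together with a subgroup `D` of index p gives all of `A`. -/
theorem centralizes_of_index_prime {P : Type*} [Group P] [Finite P] {A D : Subgroup P} {p : ℕ}
    (hDA : D ≤ A) (hp : p.Prime) (hc : Nat.card A = Nat.card D * p) {x : P} (hxA : x ∈ A) (hxD : x ∉ D)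
    {e : P} (heD : ∀ d ∈ D, e * d = d * e) (hex : e * x = x * e) : ∀ a ∈ A, e * a = a * e := by
  -- the centralizer of e in A contains D properly
  have h1 : D < A ⊓ Subgroup.centralizer ({e} : Set P) := by
    refine lt_of_le_of_ne (fun d hd => ⟨hDA hd, ?_⟩) ?_
    · refine Subgroup.mem_centralizer_iff.2 ?_
      rintro _ rfl
      exact heD d hd
    · intro h
      apply hxD
      rw [h]
      refine ⟨hxA, Subgroup.mem_centralizer_iff.2 ?_⟩
      rintro _ rfl
      exact hex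
  have h2 := card_mul_relIndex h1.le
  have h3 := card_mul_relIndex (A := A ⊓ Subgroup.centralizer ({e} : Set P)) (B := A) inf_le_left
  have h4 : Nat.card D < Nat.card ↥(A ⊓ Subgroup.centralizer ({e} : Set P)) := by
    by_contra hge
    exact h1.ne (Subgroup.eq_of_le_of_card_ge h1.le (not_lt.1 hge))
  have hDpos : 0 < Nat.card D := Nat.card_pos
  set r := D.relIndex (A ⊓ Subgroup.centralizer ({e} : Set P)) with hr
  set s := (A ⊓ Subgroup.centralizer ({e} : Set P)).relIndex A with hs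
  have h5 : r * s = p := by
    have : Nat.card D * (r * s) = Nat.card D * p := by rw [← mul_assoc, h2, h3, hc]
    exact Nat.eq_of_mul_eq_mul_left hDpos this
  have h6 : r ≠ 1 := by
    intro h; rw [h, mul_one] at h2; omega
  have h7 : s = 1 := by
    have h8 : r ∣ p := ⟨s, h5.symm⟩
    rcases (Nat.dvd_prime hp).1 h8 with h | h
    · exact absurd h h6
    · rw [h] at h5
      exact Nat.eq_of_mul_eq_mul_left hp.pos (by rw [h5, mul_one])
  rw [hs, Subgroup.relIndex_eq_one] at h7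
  intro a ha
  exact (Subgroup.mem_centralizer_iff.1 (h7 ha).2 e rfl)


/-- A finite `p`-group, `p` odd, with an elementary abelian subgroup of order at least `p ^ 4` has a
normal one. -/
theorem exists_normal_elab_p4 {P : Type*} [Group P] [Finite P] {p : ℕ} [hp : Fact p.Prime]
    (hodd : Odd p) (hP : IsPGroup p P)
    {E₀ : Subgroup P} (hE₀ : IsElementaryAbelian p E₀) (hE₀c : p ^ 4 ≤ Nat.card E₀) :
    ∃ N : Subgroup P, N.Normal ∧ IsElementaryAbelian p N ∧ p ^ 4 ≤ Nat.card N := by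
  have hp1 : 1 < p := hp.out.one_lt
  have hp0 : 0 < p := hp.out.pos
  have hpw : ∀ {a b : ℕ}, p ^ a ≤ p ^ b → a ≤ b := fun h => (Nat.pow_le_pow_iff_right hp1).1 h
  have hnil : Group.IsNilpotent P := hP.isNilpotent
  obtain ⟨A, ⟨hAn, hAe⟩, hAmax⟩ := Set.exists_max_image
    {A : Subgroup P | A.Normal ∧ IsElementaryAbelian p A} (fun A => Nat.card A) (Set.toFinite _)
    ⟨⊥, inferInstance, H11.elem_bot p⟩
  by_cases hA81 : p ^ 4 ≤ Nat.card A
  · exact ⟨A, hAn, hAe, hA81⟩
  have hAle : Nat.card A ≤ p ^ 3 := by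
    obtain ⟨k, hk⟩ := (hP.to_subgroup A).exists_card_eq
    rw [hk] at hA81 ⊢
    have : k < 4 := by
      by_contra h
      apply hA81
      exact Nat.pow_le_pow_right hp0 (by omega)
    exact Nat.pow_le_pow_right hp0 (by omega)
  have hAmax' : ∀ B : Subgroup P, B.Normal → IsElementaryAbelian p B → A ≤ B → B = A := by
    intro B hBn hBe hAB
    exact (Subgroup.eq_of_le_of_card_ge hAB (hAmax B ⟨hBn, hBe⟩)).symm
  have hAlp : ∀ x ∈ Subgroup.centralizer (A : Set P), x ^ p = 1 → x ∈ A := fun x hx hx3 =>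
    mem_of_max_normal_elab hodd hP hAn hAe hAmax' hx hx3
  obtain ⟨E, hEe, hEmax⟩ := H11.exists_max_elem (G := P) p
  have hEc : p ^ 4 ≤ Nat.card E := hE₀c.trans (hEmax E₀ hE₀)
  have hAc := (H11.comm_iff A).1 hAe.1
  have hEc' := (H11.comm_iff E).1 hEe.1
  set D := A ⊓ Subgroup.centralizer (E : Set P) with hD
  have hDA : D ≤ A := inf_le_left
  have hDE : D ≤ E := by
    intro x hx
    exact H11.mem_of_max_elem ⟨hEe, hEmax⟩ (hAe.2 x hx.1) hx.2
  have hEB : ∀ e ∈ E, (∀ a ∈ A, e * a = a * e) → e ∈ D := by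
    intro e he hea
    have h1 : e ∈ A := hAlp e (Subgroup.mem_centralizer_iff.2 fun a ha => (hea a ha).symm)
      (hEe.2 e he)
    exact ⟨h1, Subgroup.mem_centralizer_iff.2 fun f hf => hEc' f hf e he⟩
  have hDcomm : ∀ d ∈ D, ∀ e ∈ E, e * d = d * e := fun d hd e he =>
    (Subgroup.mem_centralizer_iff.1 hd.2 e he)
  have hDneA : D ≠ A := by
    intro h
    have : E ≤ A := fun e he => hDA (hEB e he fun a ha => hDcomm a (h ▸ ha) e he)
    have h1 := Nat.card_le_card_of_injective _ (Subgroup.inclusion_injective this)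
    exact absurd (hpw (hEc.trans (h1.trans hAle))) (by norm_num)
  have hDlt : D < A := lt_of_le_of_ne hDA hDneA
  have h3 : Nat.Prime p := hp.out
  obtain ⟨k, hk⟩ := (hP.to_subgroup A).exists_card_eq
  obtain ⟨l, hl⟩ := (hP.to_subgroup D).exists_card_eq
  have hlk : l < k := by
    have h1 : Nat.card D < Nat.card A := by
      by_contra hge
      exact hDneA (Subgroup.eq_of_le_of_card_ge hDA (not_lt.1 hge))
    rw [hk, hl] at h1
    exact (Nat.pow_lt_pow_iff_right hp1).1 h1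
  have hk3 : k ≤ 3 := by
    rw [hk] at hAle
    exact hpw hAle
  -- the order of A is 27
  have hk3' : k = 3 := by
    by_contra hne
    have hk2 : k ≤ 2 := by omega
    interval_cases k
    · omega
    · -- order 3: central
      have h1 := le_center_of_card_eq_prime hP hAn (by rw [hk, pow_one])
      apply hDneA
      apply le_antisymm hDA
      intro a ha
      exact ⟨ha, Subgroup.mem_centralizer_iff.2 fun e _ => Subgroup.mem_center_iff.1 (h1 ha) e⟩
    · have h1 := card_le_card_inf_centralizer hP hAn hk E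
      have h2 : E ⊓ Subgroup.centralizer (A : Set P) ≤ D := by
        intro e he
        exact hEB e he.1 fun a ha => (Subgroup.mem_centralizer_iff.1 he.2 a ha).symm
      have h4 := Nat.card_le_card_of_injective _ (Subgroup.inclusion_injective h2)
      rw [hl] at h4
      have h5 : p ^ l * p ≤ p ^ 1 * p :=
        Nat.mul_le_mul_right p (Nat.pow_le_pow_right hp0 (by omega))
      have h6 : p ^ 4 ≤ p ^ 2 := by
        calc p ^ 4 ≤ Nat.card E := hEc
          _ ≤ _ := h1
          _ ≤ p ^ l * p := Nat.mul_le_mul_right p h4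
          _ ≤ p ^ 1 * p := h5
          _ = p ^ 2 := by ring
      exact absurd (hpw h6) (by norm_num)
  subst hk3'
  -- chain A₁ < A₂ < A
  obtain ⟨A₂, hA₂n, hA₂A, hA₂c⟩ := exists_normal_le_card_eq hP hAn 2
    (by rw [hk]; exact Nat.pow_le_pow_right hp0 (by norm_num))
  obtain ⟨A₁, hA₁n, hA₁A₂, hA₁c⟩ := exists_normal_le_card_eq hP hA₂n 1
    (by rw [hA₂c]; exact Nat.pow_le_pow_right hp0 (by norm_num))
  have hA₁cent := le_center_of_card_eq_prime hP hA₁n (by rw [hA₁c, pow_one])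
  have hA₁comm : ∀ z ∈ A₁, ∀ g : P, g * z = z * g := fun z hz g =>
    Subgroup.mem_center_iff.1 (hA₁cent hz) g
  have hcA₂ : ∀ g : P, ∀ x ∈ A₂, g * x * g⁻¹ * x⁻¹ ∈ A₁ := fun g x hx =>
    comm_mem_of_card hP hA₁n hA₂n hA₁A₂ (by rw [hA₁c, hA₂c]; ring) g hx
  have hcA : ∀ g : P, ∀ x ∈ A, g * x * g⁻¹ * x⁻¹ ∈ A₂ := fun g x hx =>
    comm_mem_of_card hP hA₂n hAn hA₂A (by rw [hA₂c, hk]; ring) g hx
  have hA₁D : A₁ ≤ D := fun z hz => ⟨hA₂A (hA₁A₂ hz),
    Subgroup.mem_centralizer_iff.2 fun e _ => hA₁comm z hz e⟩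
  -- |D| = 9
  have hl2 : l = 2 := by
    by_contra hne
    have hl1 : l ≤ 1 := by omega
    have hDc3 : Nat.card D ≤ p := by
      rw [hl]; calc p ^ l ≤ p ^ 1 := Nat.pow_le_pow_right hp0 hl1
        _ = p := pow_one p
    obtain ⟨b, hbA₂, hbA₁⟩ : ∃ b ∈ A₂, b ∉ A₁ := by
      by_contra hc
      push Not at hc
      have := Nat.card_le_card_of_injective _ (Subgroup.inclusion_injective
        (show A₂ ≤ A₁ from hc))
      rw [hA₁c, hA₂c] at this
      exact absurd (hpw this) (by norm_num)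
    obtain ⟨a, haA, haA₂⟩ : ∃ a ∈ A, a ∉ A₂ := by
      by_contra hc
      push Not at hc
      have := Nat.card_le_card_of_injective _ (Subgroup.inclusion_injective
        (show A ≤ A₂ from hc))
      rw [hk, hA₂c] at this
      exact absurd (hpw this) (by norm_num)
    set Kb := E ⊓ Subgroup.centralizer ({b} : Set P) with hKb
    have h1 := comm_hom_card (E := E) (Z := A₁) (x := b)
      (fun z hz w _ => (hA₁comm w (by assumption) z)) (fun e _ z hz => hA₁comm z hz e)
      (fun e _ => hcA₂ e b hbA₂)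
    rw [hA₁c] at h1
    have hKbb : ∀ e ∈ Kb, e * b = b * e := fun e he =>
      (Subgroup.mem_centralizer_iff.1 he.2 b rfl).symm
    have hKbA₂ : ∀ e ∈ Kb, ∀ z ∈ A₂, e * z = z * e := fun e he =>
      centralizes_of_index_prime hA₁A₂ h3 (by rw [hA₁c, hA₂c]; ring) hbA₂ hbA₁
        (fun d hd => hA₁comm d hd e) (hKbb e he)
    have h2 := comm_hom_card (E := Kb) (Z := A₂) (x := a)
      (fun z hz w hw => hAc z (hA₂A hz) w (hA₂A hw)) hKbA₂ (fun e _ => hcA e a haA)
    rw [hA₂c] at h2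
    have h4 : Kb ⊓ Subgroup.centralizer ({a} : Set P) ≤ D := by
      intro e he
      apply hEB e he.1.1
      exact centralizes_of_index_prime hA₂A h3 (by rw [hA₂c, hk]; ring) haA haA₂
        (hKbA₂ e he.1) (Subgroup.mem_centralizer_iff.1 he.2 a rfl).symm
    have h5 := Nat.card_le_card_of_injective _ (Subgroup.inclusion_injective h4)
    -- counting
    have h6 : p ^ 3 ≤ Nat.card Kb := by
      have h7 := h1.1
      rw [pow_one, ← hKb] at h7
      refine le_of_mul_le_mul_right ?_ hp0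
      calc p ^ 3 * p = p ^ 4 := by ring
        _ ≤ _ := hEc.trans h7
    have h5' : Nat.card ↥(Kb ⊓ Subgroup.centralizer ({a} : Set P)) * p ^ 2 ≤ p ^ 3 := by
      calc _ ≤ p * p ^ 2 := Nat.mul_le_mul_right _ (h5.trans hDc3)
        _ = p ^ 3 := by ring
    have h7 := h2.2 (h5'.trans h6) b hbA₂
    obtain ⟨e₁, he₁, he₁a⟩ := h7
    have h8 : ∃ e₂ ∈ E, e₂ ∉ Kb := by
      by_contra hc
      push Not at hc
      have h9 := Nat.card_le_card_of_injective _ (Subgroup.inclusion_injective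
        (show E ≤ Kb from hc))
      have h10 := h2.1
      exact absurd (hpw (hEc.trans (h9.trans (h10.trans h5')))) (by norm_num)
    obtain ⟨e₂, he₂, he₂b⟩ := h8
    apply he₂b
    refine ⟨he₂, Subgroup.mem_centralizer_iff.2 ?_⟩
    intro b' hb'
    rw [Set.mem_singleton_iff.1 hb']
    -- commutation
    have e1 : e₁ * a * e₁⁻¹ = b * a := by
      rw [← he₁a]; group
    set u := e₂ * a * e₂⁻¹ * a⁻¹ with hu
    have huA : u ∈ A₂ := hcA e₂ a haA
    have e2 : e₂ * a * e₂⁻¹ = u * a := by rw [hu]; group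
    have e3 : e₁ * (e₂ * a * e₂⁻¹) * e₁⁻¹ = e₂ * (e₁ * a * e₁⁻¹) * e₂⁻¹ := by
      have := hEc' e₁ he₁.1 e₂ he₂
      calc e₁ * (e₂ * a * e₂⁻¹) * e₁⁻¹ = (e₁ * e₂) * a * (e₁ * e₂)⁻¹ := by group
        _ = (e₂ * e₁) * a * (e₂ * e₁)⁻¹ := by rw [this]
        _ = _ := by group
    have e4 : e₁ * (u * a) * e₁⁻¹ = u * (b * a) := by
      calc e₁ * (u * a) * e₁⁻¹ = (e₁ * u) * a * e₁⁻¹ := by group
        _ = (u * e₁) * a * e₁⁻¹ := by rw [hKbA₂ e₁ he₁ u huA]
        _ = u * (e₁ * a * e₁⁻¹) := by group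
        _ = _ := by rw [e1]
    have e5 : e₂ * (b * a) * e₂⁻¹ = (e₂ * b * e₂⁻¹) * (u * a) := by
      calc e₂ * (b * a) * e₂⁻¹ = (e₂ * b * e₂⁻¹) * (e₂ * a * e₂⁻¹) := by group
        _ = _ := by rw [e2]
    rw [e2, e4, e1, e5] at e3
    have hbA : b ∈ A := hA₂A hbA₂
    have e6 : u * (b * a) = b * (u * a) := by
      rw [← mul_assoc, hAc u (hA₂A huA) b hbA, mul_assoc]
    rw [e6] at e3
    have e7 : b = e₂ * b * e₂⁻¹ := mul_right_cancel e3
    exact (mul_inv_eq_iff_eq_mul.1 e7.symm).symm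
  subst hl2
  -- D = A₂
  have hcount : ∀ x ∈ A, x ∉ D → ∀ e ∈ E, e * x = x * e → e ∈ D := by
    intro x hxA hxD e he hex
    apply hEB e he
    exact centralizes_of_index_prime hDA h3 (by rw [hl, hk]; ring) hxA hxD
      (fun d hd => hDcomm d hd e he) hex
  have hDA₂ : D = A₂ := by
    by_contra hne
    have hle : ¬ A₂ ≤ D := by
      intro h
      apply hne
      exact (Subgroup.eq_of_le_of_card_ge h (by rw [hl, hA₂c])).symm
    obtain ⟨b, hbA₂, hbD⟩ := SetLike.not_le_iff_exists.1 hle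
    have h1 := (comm_hom_card (E := E) (Z := A₁) (x := b)
      (fun z hz w _ => (hA₁comm w (by assumption) z)) (fun e _ z hz => hA₁comm z hz e)
      (fun e _ => hcA₂ e b hbA₂)).1
    have h2 : E ⊓ Subgroup.centralizer ({b} : Set P) ≤ D := by
      intro e he
      exact hcount b (hA₂A hbA₂) hbD e he.1 (Subgroup.mem_centralizer_iff.1 he.2 b rfl).symm
    have h4 := Nat.card_le_card_of_injective _ (Subgroup.inclusion_injective h2)
    rw [hl] at h4
    rw [hA₁c, pow_one] at h1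
    have h5 : p ^ 4 ≤ p ^ 3 := by
      calc p ^ 4 ≤ _ := hEc.trans h1
        _ ≤ p ^ 2 * p := Nat.mul_le_mul_right p h4
        _ = p ^ 3 := by ring
    exact absurd (hpw h5) (by norm_num)
  have hDn : D.Normal := hDA₂ ▸ hA₂n
  obtain ⟨a, haA, haD⟩ := SetLike.exists_of_lt hDlt
  have hE81 := comm_hom_card (E := E) (Z := D) (x := a)
    (fun z hz w hw => hAc z (hDA hz) w (hDA hw)) (fun e he z hz => hDcomm z hz e he)
    (fun e _ => by rw [hDA₂]; exact hcA e a haA)
  have hEa : E ⊓ Subgroup.centralizer ({a} : Set P) ≤ D := by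
    intro e he
    exact hcount a haA haD e he.1 (Subgroup.mem_centralizer_iff.1 he.2 a rfl).symm
  have hEa' := Nat.card_le_card_of_injective _ (Subgroup.inclusion_injective hEa)
  rw [hl] at hEa' hE81
  have hEa4 : Nat.card ↥(E ⊓ Subgroup.centralizer ({a} : Set P)) * p ^ 2 ≤ p ^ 4 := by
    calc _ ≤ p ^ 2 * p ^ 2 := Nat.mul_le_mul_right _ hEa'
      _ = p ^ 4 := by ring
  have hEcard : Nat.card E = p ^ 4 := le_antisymm (hE81.1.trans hEa4) hEc
  have hsurj := hE81.2 (by rw [hEcard]; exact hEa4)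
  -- E is normal
  refine ⟨E, ?_, hEe, hEc⟩
  by_contra hEn
  obtain ⟨g, hg1, hg2, hg3⟩ := exists_cj_normalize Group.normalizerCondition_of_isNilpotent hEn
  set E' := cj g E with hE'
  have hE'c : ∀ u ∈ E', ∀ v ∈ E', u * v = v * u := by
    rintro _ ⟨u, hu, rfl⟩ _ ⟨v, hv, rfl⟩
    rw [← map_mul, hEc' u hu v hv, map_mul]
  have hE'3 : ∀ u ∈ E', u ^ p = 1 := by
    rintro _ ⟨u, hu, rfl⟩
    rw [← map_pow, hEe.2 u hu, map_one]
  have hDE' : D ≤ E' := by
    have := cj_mono g hDE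
    rwa [cj_of_normal g D hDn] at this
  have hE'D : ∀ d ∈ D, ∀ e ∈ E', e * d = d * e := fun d hd e he => hE'c e he d (hDE' hd)
  have hkey : ∀ e' ∈ E', ∃ e ∈ E, ∃ b ∈ A, e' = e * b := by
    intro e' he'
    obtain ⟨e, he, hea⟩ := hsurj (e' * a * e'⁻¹ * a⁻¹) (by rw [hDA₂]; exact hcA e' a haA)
    refine ⟨e, he, e⁻¹ * e', ?_, by group⟩
    have hea' : e * a * e⁻¹ = e' * a * e'⁻¹ := mul_right_cancel hea
    have hcomm_a : (e⁻¹ * e') * a = a * (e⁻¹ * e') := by
      calc (e⁻¹ * e') * a = e⁻¹ * (e' * a * e'⁻¹) * e' := by group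
        _ = e⁻¹ * (e * a * e⁻¹) * e' := by rw [hea']
        _ = a * (e⁻¹ * e') := by group
    have hcomm_D : ∀ d ∈ D, (e⁻¹ * e') * d = d * (e⁻¹ * e') := by
      intro d hd
      calc (e⁻¹ * e') * d = e⁻¹ * (e' * d) := by group
        _ = e⁻¹ * d * e' := by rw [hE'D d hd e' he']; group
        _ = d * (e⁻¹ * e') := by rw [hDcomm d hd _ (inv_mem he)]; group
    apply hAlp
    · refine Subgroup.mem_centralizer_iff.2 fun x hx => ?_
      exact (centralizes_of_index_prime hDA h3 (by rw [hl, hk]; ring) haA haD hcomm_D hcomm_a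
        x hx).symm
    · have hmemE : e'⁻¹ * e⁻¹⁻¹ * e' * e⁻¹ ∈ E := by
        refine mul_mem ?_ (inv_mem he)
        have := (Subgroup.mem_normalizer_iff.1 (inv_mem (hg2 he')) e).1 he
        simpa using this
      have hmemE' : e'⁻¹ * e⁻¹⁻¹ * e' * e⁻¹ ∈ E' := by
        have h2 := (Subgroup.mem_normalizer_iff.1 (hg3 he) e').1 he'
        have h3 : e'⁻¹ * e⁻¹⁻¹ * e' * e⁻¹ = e'⁻¹ * (e * e' * e⁻¹) := by group
        rw [h3]
        exact mul_mem (inv_mem he') h2
      exact pow_mul_eq_one h3 hodd (by rw [inv_pow, hEe.2 e he, inv_one]) (hE'3 e' he')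
        (hEc' _ hmemE _ (inv_mem he)) (hE'c _ hmemE' _ he') (hEe.2 _ hmemE)
  -- orders
  have hE'le : E' ≤ E ⊔ A := by
    intro x hx
    obtain ⟨e, he, b, hb, rfl⟩ := hkey x hx
    exact mul_mem (Subgroup.mem_sup_left he) (Subgroup.mem_sup_right hb)
  have hEAinf : E ⊓ A ≤ D := by
    intro e he
    exact hEB e he.1 fun a ha => hAc e he.2 a ha
  have hEAinf' : E ⊓ A = D := le_antisymm hEAinf (le_inf hDE hDA)
  have hQ : Nat.card ↥(E ⊔ A) = p ^ 5 := by
    have h1 := card_mul_relIndex (A := A) (B := E ⊔ A) le_sup_right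
    rw [Subgroup.relIndex_sup_right] at h1
    have h2 := card_mul_relIndex (A := E ⊓ A) (B := E) inf_le_left
    rw [Subgroup.inf_relIndex_left, hEAinf', hl, hEcard] at h2
    rw [hk] at h1
    have h4 : A.relIndex E = p ^ 2 :=
      Nat.eq_of_mul_eq_mul_left (pow_pos hp0 2) (by rw [h2]; ring)
    rw [← h1, h4]; ring
  have hidx : E.relIndex (E ⊔ A) = p := by
    have h1 := card_mul_relIndex (A := E) (B := E ⊔ A) le_sup_left
    rw [hEcard, hQ] at h1
    exact Nat.eq_of_mul_eq_mul_left (pow_pos hp0 4) (by rw [h1]; ring)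
  have hE'card : Nat.card E' = p ^ 4 := by rw [hE', card_cj, hEcard]
  have hidx' : E.relIndex E' ≤ p := by
    rw [← hidx]
    exact Subgroup.relIndex_le_of_le_right hE'le (by rw [hidx]; exact hp0.ne')
  have hint : p ^ 3 ≤ Nat.card ↥(E ⊓ E') := by
    have h1 := card_mul_relIndex (A := E ⊓ E') (B := E') inf_le_right
    rw [Subgroup.inf_relIndex_right, hE'card] at h1
    refine le_of_mul_le_mul_right ?_ hp0
    calc p ^ 3 * p = p ^ 4 := by ring
      _ = _ := h1.symm
      _ ≤ _ := Nat.mul_le_mul_left _ hidx'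
  obtain ⟨f, hf, hfD⟩ : ∃ f ∈ E ⊓ E', f ∉ D := by
    by_contra hc
    push Not at hc
    have := Nat.card_le_card_of_injective _ (Subgroup.inclusion_injective
      (show E ⊓ E' ≤ D from hc))
    rw [hl] at this
    exact absurd (hpw (hint.trans this)) (by norm_num)
  obtain ⟨e', he', he'E⟩ : ∃ e' ∈ E', e' ∉ E := by
    by_contra hc
    push Not at hc
    exact hg1 (Subgroup.eq_of_le_of_card_ge hc (by rw [hE'card, hEcard]))
  obtain ⟨e, he, b, hb, hebe⟩ := hkey e' he'
  have hbD : b ∉ D := fun h => he'E (by rw [hebe]; exact mul_mem he (hDE h))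
  apply hfD
  apply hcount b hb hbD f hf.1
  -- f commutes with b = e⁻¹ e'
  have h1 : f * e' = e' * f := hE'c f hf.2 e' he'
  have h2 : f * e⁻¹ = e⁻¹ * f := hEc' f hf.1 _ (inv_mem he)
  have h3 : b = e⁻¹ * e' := by rw [hebe]; group
  rw [h3]
  calc f * (e⁻¹ * e') = (f * e⁻¹) * e' := by group
    _ = e⁻¹ * (f * e') := by rw [h2]; group
    _ = e⁻¹ * e' * f := by rw [h1]; group


end Cfsg.Agent.H59
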