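import Cfsg.Agent.H59.MobPoset

/-!
Möbius function of the submodule lattice of a finite semisimple `F[X]`-module.
-/

set_option autoImplicit false
set_option linter.unusedSectionVars false

namespace Cfsg.Agent.H59.SemiMob

open Polynomial Cfsg.Agent.H59.Mob UniqueFactorizationMonoid

attribute [local instance 10] Fintype.ofFinite

universe u v

section basic

variable {F : Type v} [Field F]
variable (M : Type u) [AddCommGroup M] [Module F M] [Module F[X] M] [IsScalarTower F F[X] M]
variable (N : Type u) [AddCommGroup N] [Module F N] [Module F[X] N] [IsScalarTower F F[X] N]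

/-- multiplication by `X` -/
noncomputable def tx : M →ₗ[F] M where
  toFun x := (X : F[X]) • x
  map_add' x y := smul_add _ _ _
  map_smul' c x := by
    simp only [RingHom.id_apply]
    rw [← algebraMap_smul F[X] c x, ← algebraMap_smul F[X] c (X • x), smul_smul, smul_smul, mul_comm]

variable {M N}

lemma aeval_tx (p : F[X]) (x : M) : (aeval (tx (F := F) M) p) x = p • x := by
  induction p using Polynomial.induction_on generalizing x with
  | C a => rw [aeval_C, Module.algebraMap_end_apply, ← algebraMap_smul F[X] a x]; rfl
  | add p q hp hq => rw [map_add, LinearMap.add_apply, hp, hq, add_smul]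
  | monomial n a h =>
    rw [pow_succ, ← mul_assoc, map_mul, Module.End.mul_apply, aeval_X, h]
    change (C a * X ^ n) • ((X : F[X]) • x) = _
    rw [smul_smul]

variable [Finite M] [Finite N]

/-- the characteristic polynomial -/
noncomputable def cp (M : Type u) [AddCommGroup M] [Module F M] [Module F[X] M] [IsScalarTower F F[X] M] [Finite M] : F[X] :=
  (tx (F := F) M).charpoly

lemma cp_monic : (cp (F := F) M).Monic := LinearMap.charpoly_monic _

lemma cp_congr (e : M ≃ₗ[F[X]] N) : cp (F := F) M = cp N := by
  have h : tx N = (e.restrictScalars F).conj (tx M) := by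
    apply LinearMap.ext
    intro x
    change (X : F[X]) • x = e ((X : F[X]) • (e.symm x))
    rw [map_smul, LinearEquiv.apply_symm_apply]
  unfold cp
  rw [h, LinearEquiv.charpoly_conj]

lemma cp_prod : cp (F := F) (M × N) = cp M * cp N := by
  unfold cp
  rw [← LinearMap.charpoly_prodMap]
  rfl

lemma cp_isCompl {S W : Submodule F[X] M} (h : IsCompl S W) : cp (F := F) M = cp S * cp W := by
  rw [← cp_prod, cp_congr (Submodule.prodEquivOfIsCompl S W h)]

lemma cp_simple [IsSimpleModule F[X] M] : ∃ f : F[X], f.Monic ∧ Irreducible f ∧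
    Nonempty (M ≃ₗ[F[X]] (F[X] ⧸ Ideal.span {f})) ∧ cp (F := F) M = f := by
  classical
  obtain ⟨I, hI, ⟨e⟩⟩ := isSimpleModule_iff_quot_maximal.1 (inferInstance : IsSimpleModule F[X] M)
  obtain ⟨g, rfl⟩ : ∃ g, I = Ideal.span {g} := (IsPrincipalIdealRing.principal I).principal
  have hg0 : g ≠ 0 := by
    rintro rfl
    rw [Ideal.span_singleton_eq_bot.2 rfl] at e
    have e' : M ≃ₗ[F[X]] F[X] := e.trans (Submodule.quotEquivOfEqBot _ rfl)
    have : Finite F[X] := Finite.of_equiv M e'.toEquiv
    exact not_finite F[X]
  have hirr : Irreducible g := by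
    have := (Ideal.span_singleton_prime hg0).1 hI.isPrime
    exact this.irreducible
  set f := normalize g with hf
  have hfm : f.Monic := Polynomial.monic_normalize hg0
  have hfi : Irreducible f := (associated_normalize g).irreducible hirr
  have hspan : Ideal.span {g} = Ideal.span {f} := Ideal.span_singleton_eq_span_singleton.2 (associated_normalize g)
  rw [hspan] at e
  refine ⟨f, hfm, hfi, ⟨e⟩, ?_⟩
  have : Nontrivial M := IsSimpleModule.nontrivial F[X] M
  have hann : aeval (tx (F := F) M) f = 0 := by
    apply LinearMap.ext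
    intro x
    rw [aeval_tx, LinearMap.zero_apply]
    apply e.injective
    rw [map_smul, map_zero]
    obtain ⟨y, hy⟩ := Submodule.Quotient.mk_surjective _ (e x)
    rw [← hy, ← Submodule.Quotient.mk_smul, Submodule.Quotient.mk_eq_zero]
    exact Ideal.mul_mem_right _ _ (Ideal.mem_span_singleton_self f)
  have hmin : f = minpoly F (tx (F := F) M) := minpoly.eq_of_irreducible_of_monic hfi hann hfm
  have hdvd : f ∣ cp (F := F) M := by
    conv_lhs => rw [hmin]
    exact LinearMap.minpoly_dvd_charpoly _
  have hdeg : (cp (F := F) M).natDegree = f.natDegree := by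
    unfold cp
    rw [LinearMap.charpoly_natDegree, (e.restrictScalars F).finrank_eq, finrank_quotient_span_eq_natDegree]
  exact (Polynomial.eq_of_monic_of_dvd_of_natDegree_le hfm cp_monic hdvd hdeg.le)

lemma exists_split [IsSemisimpleModule F[X] M] [Nontrivial M] : ∃ S W : Submodule F[X] M, IsCompl S W ∧
    IsSimpleModule F[X] S ∧ Module.finrank F M = Module.finrank F S + Module.finrank F W ∧ 0 < Module.finrank F S := by
  obtain ⟨S, hS⟩ := IsSemisimpleModule.exists_simple_submodule F[X] M
  obtain ⟨W, hW⟩ := exists_isCompl S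
  have : Nontrivial S := IsSimpleModule.nontrivial F[X] S
  refine ⟨S, W, hW, hS, ?_, Module.finrank_pos⟩
  rw [← Module.finrank_prod]
  exact (((Submodule.prodEquivOfIsCompl S W hW).restrictScalars F).finrank_eq).symm

/-- homomorphisms from a cyclic module -/
noncomputable def homQuot (f : F[X]) : ((F[X] ⧸ Ideal.span {f}) →ₗ[F[X]] N) ≃ {x : N // f • x = 0} where
  toFun φ := ⟨φ (Submodule.Quotient.mk 1), by
    rw [← map_smul, ← Submodule.Quotient.mk_smul]
    have : (Submodule.Quotient.mk (f • (1 : F[X])) : F[X] ⧸ Ideal.span {f}) = 0 := by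
      rw [Submodule.Quotient.mk_eq_zero, smul_eq_mul, mul_one]
      exact Ideal.mem_span_singleton_self f
    rw [this, map_zero]⟩
  invFun x := Submodule.liftQ _ (LinearMap.toSpanSingleton F[X] N x.1) (by
    intro r hr
    obtain ⟨s, rfl⟩ := Ideal.mem_span_singleton.1 hr
    rw [LinearMap.mem_ker, LinearMap.toSpanSingleton_apply, mul_comm, mul_smul, x.2, smul_zero])
  left_inv φ := by
    apply LinearMap.ext
    intro y
    obtain ⟨r, rfl⟩ := Submodule.Quotient.mk_surjective _ y
    rw [Submodule.liftQ_apply, LinearMap.toSpanSingleton_apply, ← map_smul, ← Submodule.Quotient.mk_smul, smul_eq_mul, mul_one]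
  right_inv x := by
    apply Subtype.ext
    change Submodule.liftQ _ (LinearMap.toSpanSingleton F[X] N x.1) _ (Submodule.Quotient.mk 1) = x.1
    rw [Submodule.liftQ_apply, LinearMap.toSpanSingleton_apply, one_smul]

/-- complements of a submodule -/
lemma card_compl {S W : Submodule F[X] M} (h : IsCompl S W) :
    Nat.card {U : Submodule F[X] M // IsCompl U W} = Nat.card (S →ₗ[F[X]] W) := by
  have e1 : {U : Submodule F[X] M // IsCompl U W} ≃ {U : Submodule F[X] M // IsCompl W U} :=
    Equiv.subtypeEquivRight fun U => isCompl_comm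
  have e2 : {f : M →ₗ[F[X]] W // ∀ x : W, f x = x} ≃ (S →ₗ[F[X]] W) :=
    { toFun := fun f => f.1.comp S.subtype
      invFun := fun g => ⟨LinearMap.ofIsCompl h g LinearMap.id, fun x => by
        rw [LinearMap.ofIsCompl_right_apply]; rfl⟩
      left_inv := fun f => by
        apply Subtype.ext
        apply LinearMap.ofIsCompl_eq h
        · intro u; rfl
        · intro u; exact (f.2 u).symm
      right_inv := fun g => by
        apply LinearMap.ext
        intro x
        change LinearMap.ofIsCompl h g LinearMap.id x = g x
        rw [LinearMap.ofIsCompl_left_apply] }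
  exact Nat.card_congr (e1.trans (W.isComplEquivProj.trans e2))

end basic

end Cfsg.Agent.H59.SemiMob
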