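import Cfsg.Agent.H59.SemiMob

/-!
Möbius function of the submodule lattice of a finite semisimple `F[X]`-module, continued.
-/

set_option autoImplicit false
set_option linter.unusedSectionVars false

namespace Cfsg.Agent.H59.SemiMob

open Polynomial Cfsg.Agent.H59.Mob UniqueFactorizationMonoid

attribute [local instance 10] Fintype.ofFinite

universe u v

section val

variable {F : Type v} [Field F] [DecidableEq F]

/-- the value attached to a multiset of polynomials -/
noncomputable def vm (q : ℕ) (s : Multiset F[X]) : ℂ :=
  ∏ f ∈ s.toFinset, (-1 : ℂ) ^ ((f.natDegree - 1) * s.count f) * (q : ℂ) ^ (f.natDegree * s.count f * (s.count f - 1) / 2)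

lemma vm_zero (q : ℕ) : vm q (0 : Multiset F[X]) = 1 := by
  simp [vm]

lemma vm_cons (q : ℕ) (f : F[X]) (s : Multiset F[X]) :
    vm q (f ::ₘ s) = (-1 : ℂ) ^ (f.natDegree - 1) * (q : ℂ) ^ (f.natDegree * s.count f) * vm q s := by
  classical
  -- extend both products to a common set
  have hext : ∀ t : Multiset F[X], t ≤ f ::ₘ s → vm q t = ∏ g ∈ insert f s.toFinset,
      (-1 : ℂ) ^ ((g.natDegree - 1) * t.count g) * (q : ℂ) ^ (g.natDegree * t.count g * (t.count g - 1) / 2) := by
    intro t ht
    unfold vm
    apply Finset.prod_subset
    · intro g hg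
      rw [Multiset.mem_toFinset] at hg
      have := Multiset.mem_of_le ht hg
      rw [Multiset.mem_cons] at this
      rw [Finset.mem_insert, Multiset.mem_toFinset]
      exact this
    · intro g _ hg
      rw [Multiset.mem_toFinset] at hg
      rw [Multiset.count_eq_zero_of_notMem hg]
      simp
  rw [hext _ le_rfl, hext s (Multiset.le_cons_self s f)]
  rw [← Finset.mul_prod_erase _ _ (Finset.mem_insert_self f s.toFinset)]
  rw [← Finset.mul_prod_erase (insert f s.toFinset) (fun g => (-1 : ℂ) ^ ((g.natDegree - 1) * s.count g) * (q : ℂ) ^ (g.natDegree * s.count g * (s.count g - 1) / 2)) (Finset.mem_insert_self f s.toFinset)]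
  rw [← mul_assoc]
  congr 1
  · rw [Multiset.count_cons_self]
    set c := s.count f
    set d := f.natDegree
    have h1 : d * (c + 1) * (c + 1 - 1) / 2 = d * c + d * c * (c - 1) / 2 := by
      have h2 : d * (c + 1) * (c + 1 - 1) = 2 * (d * c) + d * c * (c - 1) := by
        rcases Nat.eq_zero_or_pos c with hc | hc
        · rw [hc]; simp
        · obtain ⟨e, he⟩ : ∃ e, c = e + 1 := ⟨c - 1, by omega⟩
          rw [he]
          simp only [Nat.add_sub_cancel]
          ring
      rw [h2, Nat.mul_add_div (by norm_num)]
    rw [h1, pow_add, Nat.mul_add, mul_one, pow_add]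
    ring
  · refine Finset.prod_congr rfl fun g hg => ?_
    rw [Multiset.count_cons_of_ne (Finset.ne_of_mem_erase hg)]

end val

section mob

variable {F : Type v} [Field F] [DecidableEq F]

lemma cp_of_subsingleton (M : Type u) [AddCommGroup M] [Module F M] [Module F[X] M] [IsScalarTower F F[X] M] [Finite M]
    [Subsingleton M] : cp (F := F) M = 1 := by
  apply (cp_monic (F := F) (M := M)).natDegree_eq_zero.1
  unfold cp
  rw [LinearMap.charpoly_natDegree, Module.finrank_zero_of_subsingleton]

/-- kernel of `f` -/
noncomputable def kerProd {R : Type*} [Ring R] {M : Type*} [AddCommGroup M] [Module R M] (f : R) {S W : Submodule R M} (h : IsCompl S W) :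
    {x : M // f • x = 0} ≃ {x : S // f • x = 0} × {x : W // f • x = 0} where
  toFun x := (⟨((Submodule.prodEquivOfIsCompl S W h).symm x.1).1, by
      have h1 : (Submodule.prodEquivOfIsCompl S W h).symm (f • x.1) = 0 := by rw [x.2, map_zero]
      rw [map_smul] at h1
      exact congrArg Prod.fst h1⟩, ⟨((Submodule.prodEquivOfIsCompl S W h).symm x.1).2, by
      have h1 : (Submodule.prodEquivOfIsCompl S W h).symm (f • x.1) = 0 := by rw [x.2, map_zero]
      rw [map_smul] at h1
      exact congrArg Prod.snd h1⟩)
  invFun y := ⟨Submodule.prodEquivOfIsCompl S W h (y.1.1, y.2.1), by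
    rw [← map_smul, Prod.smul_mk, y.1.2, y.2.2]
    exact map_zero _⟩
  left_inv x := by
    apply Subtype.ext
    exact LinearEquiv.apply_symm_apply _ x.1
  right_inv y := by
    have h1 := LinearEquiv.symm_apply_apply (Submodule.prodEquivOfIsCompl S W h) (y.1.1, y.2.1)
    refine Prod.ext (Subtype.ext ?_) (Subtype.ext ?_)
    · exact congrArg Prod.fst h1
    · exact congrArg Prod.snd h1

lemma card_simple (M : Type u) [AddCommGroup M] [Module F M] [Module F[X] M] [IsScalarTower F F[X] M] [Finite M] [Finite F] :
    Nat.card M = Nat.card F ^ (cp (F := F) M).natDegree := by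
  unfold cp
  rw [LinearMap.charpoly_natDegree]
  exact Module.natCard_eq_pow_finrank

lemma cp_dvd_smul {M : Type u} [AddCommGroup M] [Module F M] [Module F[X] M] [IsScalarTower F F[X] M] [Finite M] (x : M) :
    (cp (F := F) M) • x = 0 := by
  rw [← aeval_tx]
  unfold cp
  rw [LinearMap.aeval_self_charpoly, LinearMap.zero_apply]

theorem card_ker [Finite F] {f : F[X]} (hf : f.Monic) (hi : Irreducible f) (k : ℕ) :
    ∀ (M : Type u) [AddCommGroup M] [Module F M] [Module F[X] M] [IsScalarTower F F[X] M] [Finite M]
      [IsSemisimpleModule F[X] M], Module.finrank F M = k →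
      Nat.card {x : M // f • x = 0} = Nat.card F ^ (f.natDegree * (normalizedFactors (cp (F := F) M)).count f) := by
  induction k using Nat.strong_induction_on with
  | _ k ih =>
    intro M _ _ _ _ _ _ hk
    rcases subsingleton_or_nontrivial M with hM | hM
    · rw [cp_of_subsingleton, normalizedFactors_one, Multiset.count_zero, mul_zero, pow_zero]
      have : Unique {x : M // f • x = 0} := ⟨⟨⟨0, smul_zero _⟩⟩, fun y => Subtype.ext (Subsingleton.elim _ _)⟩
      exact Nat.card_unique
    · obtain ⟨S, W, hSW, hS, hd, hpos⟩ := exists_split (F := F) (M := M)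
      obtain ⟨g, hgm, hgi, ⟨e⟩, hcp⟩ := cp_simple (F := F) (M := S)
      have ihW := ih (Module.finrank F W) (by omega) W rfl
      rw [Nat.card_congr (kerProd f hSW), Nat.card_prod, ihW, cp_isCompl (F := F) hSW,
        normalizedFactors_mul (cp_monic (F := F)).ne_zero (cp_monic (F := F)).ne_zero, Multiset.count_add, mul_add, pow_add]
      congr 1
      rw [hcp, normalizedFactors_irreducible hgi, hgm.normalize_eq_self]
      by_cases hfg : f = g
      · subst hfg
        rw [Multiset.count_singleton_self, mul_one]
        have h1 : Nat.card {x : S // f • x = 0} = Nat.card S := by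
          apply Nat.card_congr
          refine Equiv.subtypeUnivEquiv fun x => ?_
          rw [← hcp]
          exact cp_dvd_smul x
        rw [h1, card_simple (F := F) S, hcp]
      · rw [Multiset.count_singleton, if_neg hfg, mul_zero, pow_zero]
        have hcop : IsCoprime f g := by
          rw [Irreducible.coprime_iff_not_dvd hi]
          intro hdv
          apply hfg
          exact Polynomial.eq_of_monic_of_associated hf hgm (hi.associated_of_dvd hgi hdv)
        have : Unique {x : S // f • x = 0} := ⟨⟨⟨0, smul_zero _⟩⟩, fun y => Subtype.ext (by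
          obtain ⟨a, b, hab⟩ := hcop
          have h1 : (a * f + b * g) • y.1 = 0 := by
            rw [add_smul, mul_smul, mul_smul, y.2, smul_zero, zero_add]
            have : g • y.1 = 0 := by
              rw [← hcp]; exact cp_dvd_smul y.1
            rw [this, smul_zero]
          rw [hab, one_smul] at h1
          exact h1)⟩
        exact Nat.card_unique

theorem mob_bot [Finite F] (k : ℕ) :
    ∀ (M : Type u) [AddCommGroup M] [Module F M] [Module F[X] M] [IsScalarTower F F[X] M] [Finite M]
      [IsSemisimpleModule F[X] M] (m : Submodule F[X] M → ℂ) (_ : IsMob m), Module.finrank F M = k →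
      m ⊥ = (-1) ^ k * vm (Nat.card F) (normalizedFactors (cp (F := F) M)) := by
  induction k using Nat.strong_induction_on with
  | _ k ih =>
    intro M _ _ _ _ _ _ m hm hk
    rcases subsingleton_or_nontrivial M with hM | hM
    · rw [cp_of_subsingleton, normalizedFactors_one, vm_zero]
      rw [Module.finrank_zero_of_subsingleton] at hk
      rw [← hk, pow_zero, one_mul, ← hm.1]
      congr 1
      exact Subsingleton.elim _ _
    · obtain ⟨S, W, hSW, hS, hd, hpos⟩ := exists_split (F := F) (M := M)
      obtain ⟨g, hgm, hgi, ⟨e⟩, hcp⟩ := cp_simple (F := F) (M := S)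
      have ihW := ih (Module.finrank F W) (by omega) W
      have hatom : IsAtom S := isSimpleModule_iff_isAtom.1 hS
      have hco : IsCoatom W := (hSW.isAtom_iff_isCoatom).1 hatom
      have hW : W ≠ ⊤ := hco.1
      have hval : ∀ U : Submodule F[X] M, IsCompl U W →
          m U = (-1) ^ (Module.finrank F W) * vm (Nat.card F) (normalizedFactors (cp (F := F) W)) := by
        intro U hU
        have h1 := hm.ici U
        have h2 := h1.comp ((Submodule.mapIic W).trans hU.symm.IicOrderIsoIci)
        rw [← ihW _ h2 rfl]
        have h3 : ((Submodule.mapIic W).trans hU.symm.IicOrderIsoIci) (⊥ : Submodule F[X] W) = ⟨U, Set.mem_Ici.2 le_rfl⟩ := by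
          rw [map_bot]
          rfl
        rw [h3]
      have hw := weisner hm hW ⊥ bot_le
      have h4 : ∀ U : Submodule F[X] M, U ⊓ W = ⊥ ↔ U = ⊥ ∨ IsCompl U W := by
        intro U
        constructor
        · intro h
          by_cases hb : U = ⊥
          · left; exact hb
          · right
            refine ⟨disjoint_iff.2 h, codisjoint_iff.2 ?_⟩
            apply hco.2
            refine lt_of_le_of_ne le_sup_right ?_
            intro h5
            have : U ≤ W := by
              rw [h5]; exact le_sup_left
            rw [inf_eq_left.2 this] at h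
            exact hb h
        · rintro (rfl | h)
          · exact bot_inf_eq W
          · exact h.1.eq_bot
      have hN : Nat.card {U : Submodule F[X] M // IsCompl U W} =
          Nat.card F ^ (g.natDegree * (normalizedFactors (cp (F := F) W)).count g) := by
        rw [card_compl hSW, ← card_ker hgm hgi (Module.finrank F W) W rfl]
        exact Nat.card_congr ((LinearEquiv.arrowCongrAddEquiv e (LinearEquiv.refl F[X] W)).toEquiv.trans (homQuot g))
      have hsum : m ⊥ + (Nat.card {U : Submodule F[X] M // IsCompl U W} : ℂ) *
          ((-1) ^ (Module.finrank F W) * vm (Nat.card F) (normalizedFactors (cp (F := F) W))) = 0 := by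
        classical
        have hw2 : ∑ U : Submodule F[X] M, (if U ⊓ W = ⊥ then m U else 0) = 0 := by
          refine Eq.trans ?_ hw
          exact @Fintype.sum_equiv _ _ _ (_) (_) _ (Equiv.refl _) _ _ (fun _ => by
            simp only [Equiv.refl_apply]; congr)
        rw [← hw2, ← Finset.add_sum_erase Finset.univ (fun U : Submodule F[X] M => if U ⊓ W = ⊥ then m U else 0)
          (Finset.mem_univ (⊥ : Submodule F[X] M))]
        congr 1
        · rw [if_pos (bot_inf_eq W)]
        · have h5 : ∀ U ∈ (Finset.univ : Finset (Submodule F[X] M)).erase ⊥, (if U ⊓ W = ⊥ then m U else 0) =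
              if IsCompl U W then ((-1) ^ (Module.finrank F W) * vm (Nat.card F) (normalizedFactors (cp (F := F) W))) else 0 := by
            intro U hU
            by_cases h6 : IsCompl U W
            · rw [if_pos h6, if_pos ((h4 U).2 (Or.inr h6)), hval U h6]
            · rw [if_neg h6, if_neg]
              intro h7
              rcases (h4 U).1 h7 with h8 | h8
              · exact Finset.ne_of_mem_erase hU h8
              · exact h6 h8
          rw [Finset.sum_congr rfl h5, Finset.sum_ite, Finset.sum_const_zero, add_zero, Finset.sum_const, nsmul_eq_mul]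
          congr 2
          rw [Nat.card_eq_fintype_card, Fintype.card_subtype]
          congr 1
          ext U
          simp only [Finset.mem_filter, Finset.mem_univ, true_and, Finset.mem_erase]
          constructor
          · intro h6
            refine ⟨⟨?_, trivial⟩, h6⟩
            rintro rfl
            exact hW (by simpa using h6.2.eq_top)
          · intro h6; exact h6.2
      rw [hN] at hsum
      rw [cp_isCompl (F := F) hSW,
        normalizedFactors_mul (cp_monic (F := F)).ne_zero (cp_monic (F := F)).ne_zero, hcp,
        normalizedFactors_irreducible hgi, hgm.normalize_eq_self, Multiset.singleton_add, vm_cons]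
      have hfr : Module.finrank F S = g.natDegree := by
        rw [← hcp]; unfold cp; rw [LinearMap.charpoly_natDegree]
      have hk' : k = g.natDegree + Module.finrank F W := by omega
      have hgp : 0 < g.natDegree := by omega
      have hsgn : (-1 : ℂ) ^ k * (-1) ^ (g.natDegree - 1) = - (-1) ^ (Module.finrank F W) := by
        rw [hk']
        obtain ⟨d, hd'⟩ : ∃ d, g.natDegree = d + 1 := ⟨g.natDegree - 1, by omega⟩
        rw [hd', Nat.add_sub_cancel, pow_add, pow_add, pow_one]
        have : (-1 : ℂ) ^ d * (-1) ^ d = 1 := by rw [← mul_pow]; norm_num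
        linear_combination (-(-1 : ℂ) ^ (Module.finrank F W)) * this
      rw [eq_neg_of_add_eq_zero_left hsum]
      push_cast
      linear_combination (-((Nat.card F : ℂ) ^ (g.natDegree * Multiset.count g (normalizedFactors (cp (F := F) W)))) *
        vm (Nat.card F) (normalizedFactors (cp (F := F) W))) * hsgn

end mob

end Cfsg.Agent.H59.SemiMob
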