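import Cfsg.Agent.H59.FlagsGL
import Cfsg.Agent.H59.SemiMob2
import Cfsg.Agent.H59.HessDet

/-!
Values of the Steinberg character of `GL_n(q)` at semisimple elements.
-/

set_option autoImplicit false
set_option linter.unusedSectionVars false

namespace Cfsg.Agent.H59.StVal

open Polynomial Matrix Cfsg.Agent.H40 Cfsg.Agent.H59.Flags Cfsg.Agent.H59.Mob Cfsg.Agent.H59.Hess Cfsg.Agent.H59.SemiMob

attribute [local instance 10] Fintype.ofFinite
attribute [local instance 10] Classical.propDecidable

variable {F : Type*} [Field F] [Fintype F] {n : ℕ}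

/-- the step matrices of the poset of invariant subspaces -/
noncomputable def hh (x : GL (Fin n) F) (k : ℕ) : Matrix (Inv x) (Inv x) ℂ := st (fun U => dm U) k

lemma hh_zero (x : GL (Fin n) F) : hh x 0 = 1 := by
  ext U V
  unfold hh st
  rw [Matrix.one_apply]
  by_cases h : U = V
  · subst h
    simp
  · rw [if_neg h, if_neg]
    rintro ⟨h1, h2⟩
    exact h (eq_of_dm h1 (by simpa using h2.le))

lemma unip_eq (x : GL (Fin n) F) : Cfsg.unipotentCharacterGL n F (fun _ => 1) x = (Hess.EE (hh x) n 0) ⊥ ⊤ := by
  unfold Cfsg.unipotentCharacterGL Hess.EE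
  rw [Matrix.sum_apply]
  refine Finset.sum_congr rfl fun κ _ => ?_
  unfold term
  by_cases h : ∀ i : Fin n, (κ i).val ≤ 1 + i.val
  · rw [if_pos h, if_pos (fun i => by have := h i; omega)]
    have hs : ∑ i : Fin n, (1 + i.val - (κ i).val) = n :=
      sum_sub_perm (fun i => 1 + i.val) (sum_shift (fun _ => 1) (by simp)) κ h
    have h1 : (((Equiv.Perm.sign κ : ℤ) : Matrix (Inv x) (Inv x) ℂ)) =
        ((Equiv.Perm.sign κ : ℤ) : ℂ) • (1 : Matrix (Inv x) (Inv x) ℂ) := by
      rw [← zsmul_one, ← Int.cast_smul_eq_zsmul ℂ]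
    rw [h1, smul_mul_assoc, one_mul, Matrix.smul_apply, smul_eq_mul]
    congr 1
    unfold Cfsg.fixedPointCharacter
    rw [card_fixed _ hs x, ← prod_st]
    have hfun : (fun i : Fin n => st (fun U : Inv x => dm U) (1 + i.val - (κ i).val)) =
        (fun i : Fin n => hh x (i.val + 1 - (κ i).val + if (κ i).val = 0 then 0 else 0)) := by
      funext i
      unfold hh
      congr 1
      simp only [ite_self, add_zero]
      omega
    rw [hfun]
  · rw [if_neg h, if_neg (fun h' => h (fun i => by have := h' i; omega))]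
    rfl

/-- the Möbius function -/
noncomputable def mm (x : GL (Fin n) F) (U : Inv x) : ℂ := (-1) ^ (n - dm U) * (Hess.EE (hh x) (n - dm U) 0) U ⊤

lemma mm_isMob (x : GL (Fin n) F) : IsMob (mm x) := by
  constructor
  · unfold mm
    rw [dm_top, Nat.sub_self, EE_zero]
    simp
  · intro U hU
    have hlt : dm U < n := by
      by_contra h
      exact hU (eq_top_of_dm (not_lt.1 h))
    obtain ⟨N, hN⟩ : ∃ N, n - dm U = N + 1 := ⟨n - dm U - 1, by omega⟩
    have h1 : (Hess.EE (hh x) (n - dm U) 0) U ⊤ = ∑ j ∈ Finset.range (N + 1), ∑ V : Inv x,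
        (-1) ^ j * (hh x (j + 1) U V * (Hess.EE (hh x) (N - j) 0) V ⊤) := by
      rw [hN, EE_formula (hh x) (hh_zero x), Matrix.sum_apply]
      refine Finset.sum_congr rfl fun j _ => ?_
      have h2 : ((-1 : Matrix (Inv x) (Inv x) ℂ)) ^ j = ((-1 : ℂ) ^ j) • (1 : Matrix (Inv x) (Inv x) ℂ) := by
        rw [show (-1 : Matrix (Inv x) (Inv x) ℂ) = (-1 : ℂ) • (1 : Matrix (Inv x) (Inv x) ℂ) by simp, _root_.smul_pow, one_pow]
      rw [h2, smul_mul_assoc, one_mul, Matrix.smul_apply, Matrix.mul_apply, smul_eq_mul, Finset.mul_sum, zero_add]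
    have h3 : ∑ j ∈ Finset.range (N + 1), ∑ V : Inv x, (-1 : ℂ) ^ j * (hh x (j + 1) U V * (Hess.EE (hh x) (N - j) 0) V ⊤) =
        ∑ V : Inv x, (if U < V then (-1) ^ (dm V - dm U - 1) * (Hess.EE (hh x) (n - dm V) 0) V ⊤ else 0) := by
      rw [Finset.sum_comm]
      refine Finset.sum_congr rfl fun V _ => ?_
      by_cases hUV : U < V
      · rw [if_pos hUV]
        have hd : dm U < dm V := by
          by_contra h
          exact hUV.ne (eq_of_dm hUV.le (not_lt.1 h))
        have hV := dm_le V
        rw [Finset.sum_eq_single (dm V - dm U - 1)]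
        · have h4 : hh x (dm V - dm U - 1 + 1) U V = 1 := by
            unfold hh st
            rw [if_pos ⟨hUV.le, by simp only; omega⟩]
          rw [h4, one_mul, show N - (dm V - dm U - 1) = n - dm V by omega]
        · intro j _ hj
          have h4 : hh x (j + 1) U V = 0 := by
            unfold hh st
            rw [if_neg]
            rintro ⟨_, h5⟩
            apply hj
            simp only at h5
            omega
          rw [h4, zero_mul, mul_zero]
        · intro h5
          exact absurd (Finset.mem_range.2 (by omega)) h5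
      · rw [if_neg hUV]
        refine Finset.sum_eq_zero fun j _ => ?_
        have h4 : hh x (j + 1) U V = 0 := by
          unfold hh st
          rw [if_neg]
          rintro ⟨h5, h6⟩
          apply hUV
          refine lt_of_le_of_ne h5 ?_
          rintro rfl
          omega
        rw [h4, zero_mul, mul_zero]
    have h5 : mm x U = - ∑ V : Inv x, (if U < V then mm x V else 0) := by
      rw [mm, h1, h3, Finset.mul_sum, ← Finset.sum_neg_distrib]
      refine Finset.sum_congr rfl fun V _ => ?_
      by_cases hUV : U < V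
      · rw [if_pos hUV, if_pos hUV]
        have hd : dm U < dm V := by
          by_contra h
          exact hUV.ne (eq_of_dm hUV.le (not_lt.1 h))
        have hV := dm_le V
        unfold mm
        rw [← mul_assoc, ← pow_add]
        have h6 : n - dm U + (dm V - dm U - 1) = 2 * (dm V - dm U - 1) + 1 + (n - dm V) := by omega
        rw [h6, pow_add, pow_add, pow_mul]
        norm_num
      · rw [if_neg hUV, if_neg hUV, mul_zero, neg_zero]
    have h7 : ∑ W : Inv x, (if U ≤ W then mm x W else 0) = mm x U + ∑ V : Inv x, (if U < V then mm x V else 0) := by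
      have h8 : ∀ W : Inv x, (if U ≤ W then mm x W else 0) = (if W = U then mm x U else 0) + (if U < W then mm x W else 0) := by
        intro W
        by_cases h : W = U
        · subst h; simp
        · rw [if_neg h, zero_add]
          by_cases h' : U ≤ W
          · rw [if_pos h', if_pos (lt_of_le_of_ne h' (Ne.symm h))]
          · rw [if_neg h', if_neg (fun h'' => h' h''.le)]
      rw [Finset.sum_congr rfl (fun W _ => h8 W), Finset.sum_add_distrib]
      congr 1
      rw [Finset.sum_ite_eq' Finset.univ U, if_pos (Finset.mem_univ _)]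
    have h9 : ∑ W : Inv x, (if U ≤ W then mm x W else 0) = 0 := by
      rw [h7]
      nth_rewrite 1 [h5]
      ring
    exact h9

/-- the module attached to an invertible matrix -/
abbrev MM (x : GL (Fin n) F) := Module.AEval' (Matrix.toLin' (x : Matrix (Fin n) (Fin n) F))

instance (x : GL (Fin n) F) : Finite (MM x) := Finite.of_equiv (Fin n → F) (Module.AEval'.of _).toEquiv

lemma mem_invt (x : GL (Fin n) F) (W : Submodule F (Fin n → F)) :
    W ∈ (Algebra.lsmul F F (Fin n → F) (Matrix.toLin' (x : Matrix (Fin n) (Fin n) F))).invtSubmodule ↔ gmap x W = W := by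
  rw [Module.End.mem_invtSubmodule]
  constructor
  · intro h
    apply Submodule.eq_of_le_of_finrank_eq
    · rintro _ ⟨v, hv, rfl⟩
      exact h hv
    · exact finrank_gmap x W
  · intro h v hv
    change (x : Matrix (Fin n) (Fin n) F) *ᵥ v ∈ W
    rw [← h]
    exact ⟨v, hv, rfl⟩

/-- invariant subspaces are submodules -/
noncomputable def eInv (x : GL (Fin n) F) : Submodule F[X] (MM x) ≃o Inv x :=
  (Module.AEval.mapSubmodule F (Fin n → F) (Matrix.toLin' (x : Matrix (Fin n) (Fin n) F))).symm.trans
    { toFun := fun W => ⟨W.1, (mem_invt x W.1).1 W.2⟩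
      invFun := fun W => ⟨W.1, (mem_invt x W.1).2 W.2⟩
      left_inv := fun _ => rfl
      right_inv := fun _ => rfl
      map_rel_iff' := Iff.rfl }

lemma cp_MM (x : GL (Fin n) F) : cp (F := F) (MM x) = (x : Matrix (Fin n) (Fin n) F).charpoly := by
  unfold cp
  have h : tx (F := F) (M := MM x) = (Module.AEval'.of (Matrix.toLin' (x : Matrix (Fin n) (Fin n) F))).conj
      (Matrix.toLin' (x : Matrix (Fin n) (Fin n) F)) := by
    apply LinearMap.ext
    intro v
    obtain ⟨w, rfl⟩ := (Module.AEval'.of (Matrix.toLin' (x : Matrix (Fin n) (Fin n) F))).surjective v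
    rw [LinearEquiv.conj_apply_apply, LinearEquiv.symm_apply_apply]
    exact Module.AEval'.X_smul_of _ _
  rw [h, LinearEquiv.charpoly_conj, Matrix.charpoly_toLin']

lemma finrank_MM (x : GL (Fin n) F) : Module.finrank F (MM x) = n := by
  rw [← (Module.AEval'.of (Matrix.toLin' (x : Matrix (Fin n) (Fin n) F))).finrank_eq, Module.finrank_fintype_fun_eq_card,
    Fintype.card_fin]

lemma semisimple (x : GL (Fin n) F) (p : ℕ) [Fact p.Prime] [CharP F p] (hx : (orderOf x).Coprime p) :
    IsSemisimpleModule F[X] (MM x) := by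
  have h1 : (orderOf x : F) ≠ 0 := by
    intro h
    rw [CharP.cast_eq_zero_iff F p] at h
    have := Nat.Coprime.eq_one_of_dvd hx.symm h
    exact (Fact.out : p.Prime).one_lt.ne' this
  have hsep : (X ^ (orderOf x) - 1 : F[X]).Separable := X_pow_sub_one_separable_iff.2 h1
  refine Module.End.isSemisimple_of_squarefree_aeval_eq_zero hsep.squarefree ?_
  rw [map_sub, map_pow, aeval_X, map_one, ← Matrix.toLin'_pow, ← Units.val_pow_eq_pow_val, pow_orderOf_eq_one,
    Units.val_one, Matrix.toLin'_one]
  exact sub_self _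

theorem main [DecidableEq F] (x : GL (Fin n) F) (p : ℕ) [Fact p.Prime] [CharP F p] (hx : (orderOf x).Coprime p) :
    Cfsg.unipotentCharacterGL n F (fun _ => 1) x =
      vm (Fintype.card F) (UniqueFactorizationMonoid.normalizedFactors (x : Matrix (Fin n) (Fin n) F).charpoly) := by
  have hss := semisimple x p hx
  have h1 := mob_bot (F := F) n (MM x) (fun U => mm x (eInv x U)) ((mm_isMob x).comp (eInv x)) (finrank_MM x)
  rw [cp_MM] at h1
  have h2 : eInv x ⊥ = ⊥ := map_bot _
  simp only [h2] at h1
  unfold mm at h1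
  rw [dm_bot, Nat.sub_zero] at h1
  rw [unip_eq, ← Nat.card_eq_fintype_card]
  exact mul_left_cancel₀ (pow_ne_zero n (by norm_num : (-1 : ℂ) ≠ 0)) h1

end Cfsg.Agent.H59.StVal
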